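import Cfsg.Agent.Lib.H96.FrDef

set_option autoImplicit false

/-! P11: matrix identities for the identification of a 3-space with the trace zero matrices. -/

namespace H79.FrP11

open Matrix

section mat
variable {F : Type*} [Field F]

/-- trace zero matrices -/
def mt (α β x y z : F) : Matrix (Fin 2) (Fin 2) F :=
  !![y * α + z * β, x + (y * β - z * α); - x + (y * β - z * α), -(y * α + z * β)]

theorem mt_det {α β : F} (h : α * α + β * β = -1) (x y z : F) : (mt α β x y z).det = x * x + y * y + z * z := by
  rw [mt, det_fin_two_of]
  linear_combination (-(y * y) - z * z) * h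

theorem mt_trace (α β x y z : F) : (mt α β x y z).trace = 0 := by
  rw [mt, trace_fin_two_of]; ring

theorem mt_add (α β x y z x' y' z' : F) : mt α β (x + x') (y + y') (z + z') = mt α β x y z + mt α β x' y' z' := by
  rw [mt, mt, mt]
  ext i j
  fin_cases i <;> fin_cases j <;> simp <;> ring

theorem mt_inj (h2 : (2 : F) ≠ 0) {α β : F} (h : α * α + β * β = -1) {x y z x' y' z' : F}
    (he : mt α β x y z = mt α β x' y' z') : x = x' ∧ y = y' ∧ z = z' := by
  have e1 := congrFun (congrFun he 0) 0
  have e2 := congrFun (congrFun he 0) 1
  have e3 := congrFun (congrFun he 1) 0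
  simp only [mt, of_apply, cons_val', cons_val_zero, cons_val_one, cons_val_fin_one] at e1 e2 e3
  have hx : x = x' := by
    apply mul_left_cancel₀ h2
    linear_combination e2 - e3
  have hw : y * β - z * α = y' * β - z' * α := by
    linear_combination e2 - hx
  refine ⟨hx, ?_, ?_⟩
  · have : (α * α + β * β) * y = (α * α + β * β) * y' := by linear_combination α * e1 + β * hw
    rw [h] at this
    linear_combination -this
  · have : (α * α + β * β) * z = (α * α + β * β) * z' := by linear_combination β * e1 - α * hw
    rw [h] at this
    linear_combination -this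

/-- reflection identity -/
theorem mt_refl {α β : F} (h : α * α + β * β = -1) (x y z u v w : F) :
    mt α β u v w * mt α β x y z + mt α β x y z * mt α β u v w = (-2 * (x * u + y * v + z * w)) • (1 : Matrix (Fin 2) (Fin 2) F) := by
  rw [mt, mt]
  ext i j
  fin_cases i <;> fin_cases j <;> simp [Matrix.mul_apply, Fin.sum_univ_two]
  · linear_combination (2 * (y * v + z * w)) * h
  · ring
  · ring
  · linear_combination (2 * (y * v + z * w)) * h

theorem mt_sq {α β : F} (h : α * α + β * β = -1) (u v w : F) :
    mt α β u v w * mt α β u v w = (-(u * u + v * v + w * w)) • (1 : Matrix (Fin 2) (Fin 2) F) := by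
  rw [mt]
  ext i j
  fin_cases i <;> fin_cases j <;> simp [Matrix.mul_apply, Fin.sum_univ_two]
  · linear_combination (v * v + w * w) * h
  · ring
  · ring
  · linear_combination (v * v + w * w) * h

end mat

end H79.FrP11
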