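import Cfsg.Agent.Lib.H96.FrDef
import Cfsg.Agent.Lib.H79.FrP11a

set_option autoImplicit false

/-! P11: the group of matrices inducing elements of `K` on a 3-space. -/

namespace H79.FrP11

open Matrix H96.Fr

variable {ι F : Type*} [Fintype ι] [DecidableEq ι] [Field F] {K : Subgroup ((ι → F) ≃ₗ[F] (ι → F))}

/-- supported on three coordinates -/
def VI (i1 i2 i3 : ι) (v : ι → F) : Prop := ∀ j, j ∉ ({i1, i2, i3} : Finset ι) → v j = 0

/-- the trace zero matrix of a vector -/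
def m (α β : F) (i1 i2 i3 : ι) (v : ι → F) : Matrix (Fin 2) (Fin 2) F := mt α β (v i1) (v i2) (v i3)

/-- `X` induces `g` -/
def Rp (α β : F) (i1 i2 i3 : ι) (X : Matrix (Fin 2) (Fin 2) F) (g : (ι → F) ≃ₗ[F] (ι → F)) : Prop :=
  ∀ v, VI i1 i2 i3 v → m α β i1 i2 i3 (g v) * X = X * m α β i1 i2 i3 v

theorem dot_e (v : ι → F) (j : ι) : v ⬝ᵥ e j = v j := by simp [e]

theorem VI_e {i1 i2 i3 k : ι} (hk : k ∈ ({i1, i2, i3} : Finset ι)) : VI i1 i2 i3 (e k : ι → F) := by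
  intro j hj
  rw [e, Pi.single_apply, if_neg]
  rintro rfl
  exact hj hk

theorem VI.add {i1 i2 i3 : ι} {v w : ι → F} (hv : VI i1 i2 i3 v) (hw : VI i1 i2 i3 w) : VI i1 i2 i3 (v + w) :=
  fun j hj => by rw [Pi.add_apply, hv j hj, hw j hj, add_zero]

theorem VI.sub {i1 i2 i3 : ι} {v w : ι → F} (hv : VI i1 i2 i3 v) (hw : VI i1 i2 i3 w) : VI i1 i2 i3 (v - w) :=
  fun j hj => by rw [Pi.sub_apply, hv j hj, hw j hj, sub_zero]

theorem VI.neg {i1 i2 i3 : ι} {v : ι → F} (hv : VI i1 i2 i3 v) : VI i1 i2 i3 (-v) :=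
  fun j hj => by rw [Pi.neg_apply, hv j hj, neg_zero]

theorem VI.smul {i1 i2 i3 : ι} {v : ι → F} (c : F) (hv : VI i1 i2 i3 v) : VI i1 i2 i3 (c • v) :=
  fun j hj => by rw [Pi.smul_apply, hv j hj, smul_zero]

theorem dot_VI {i1 i2 i3 : ι} (h12 : i1 ≠ i2) (h13 : i1 ≠ i3) (h23 : i2 ≠ i3) {v : ι → F} (hv : VI i1 i2 i3 v)
    (w : ι → F) : v ⬝ᵥ w = v i1 * w i1 + v i2 * w i2 + v i3 * w i3 := by
  rw [dotProduct, ← Finset.sum_subset (Finset.subset_univ ({i1, i2, i3} : Finset ι))]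
  · rw [Finset.sum_insert, Finset.sum_insert, Finset.sum_singleton]
    · ring
    · simpa using h23
    · simp only [Finset.mem_insert, Finset.mem_singleton, not_or]; exact ⟨h12, h13⟩
  · intro j _ hj
    rw [hv j hj, zero_mul]

theorem VI_map (D : Dat K) {g : (ι → F) ≃ₗ[F] (ι → F)} (hg : g ∈ K) {i1 i2 i3 : ι}
    (hs : Sup g ({i1, i2, i3} : Finset ι)) {v : ι → F} (hv : VI i1 i2 i3 v) : VI i1 i2 i3 (g v) := by
  intro j hj
  rw [← dot_e (g v) j]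
  nth_rw 1 [← hs j hj]
  rw [D.iso g hg, dot_e, hv j hj]

theorem sup_mul' {g h : (ι → F) ≃ₗ[F] (ι → F)} {I : Finset ι} (hg : Sup g I) (hh : Sup h I) : Sup (g * h) I := by
  intro j hj
  show g (h (e j)) = e j
  rw [hh j hj, hg j hj]

theorem sup_inv' {g : (ι → F) ≃ₗ[F] (ι → F)} {I : Finset ι} (hg : Sup g I) : Sup g⁻¹ I := by
  intro j hj
  show g.symm (e j) = e j
  rw [LinearEquiv.symm_apply_eq, hg j hj]

section ident
variable {α β : F} (hab : α * α + β * β = -1) {i1 i2 i3 : ι} (h12 : i1 ≠ i2) (h13 : i1 ≠ i3) (h23 : i2 ≠ i3)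
include hab h12 h13 h23

theorem m_anti {v w : ι → F} (hv : VI i1 i2 i3 v) :
    m α β i1 i2 i3 w * m α β i1 i2 i3 v + m α β i1 i2 i3 v * m α β i1 i2 i3 w =
      (-2 * (v ⬝ᵥ w)) • (1 : Matrix (Fin 2) (Fin 2) F) := by
  rw [dot_VI h12 h13 h23 hv, m, m, mt_refl hab]

theorem m_sq {w : ι → F} (hw : VI i1 i2 i3 w) :
    m α β i1 i2 i3 w * m α β i1 i2 i3 w = (-(w ⬝ᵥ w)) • (1 : Matrix (Fin 2) (Fin 2) F) := by
  rw [dot_VI h12 h13 h23 hw, m, mt_sq hab]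

omit hab h12 h13 h23 in
theorem m_lin (c : F) (v w : ι → F) :
    m α β i1 i2 i3 (-v + c • w) = - m α β i1 i2 i3 v + c • m α β i1 i2 i3 w := by
  simp only [m, mt, Pi.add_apply, Pi.neg_apply, Pi.smul_apply, smul_eq_mul]
  ext i j
  fin_cases i <;> fin_cases j <;> simp <;> ring

theorem m_refl {v w : ι → F} (hv : VI i1 i2 i3 v) (hw : VI i1 i2 i3 w) {c : F} (hc : c * (w ⬝ᵥ w) = 2 * (v ⬝ᵥ w)) :
    m α β i1 i2 i3 (-v + c • w) * m α β i1 i2 i3 w = m α β i1 i2 i3 w * m α β i1 i2 i3 v := by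
  have h1 := m_anti hab h12 h13 h23 (w := w) hv
  have h2 := m_sq hab h12 h13 h23 hw
  rw [m_lin, add_mul, smul_mul_assoc, h2, smul_smul]
  have h3 : m α β i1 i2 i3 w * m α β i1 i2 i3 v = (-2 * (v ⬝ᵥ w)) • (1 : Matrix (Fin 2) (Fin 2) F) -
      m α β i1 i2 i3 v * m α β i1 i2 i3 w := by rw [← h1]; abel
  rw [h3, mul_neg, hc, neg_mul]
  rw [show -(2 * (v ⬝ᵥ w)) = -2 * (v ⬝ᵥ w) by ring]
  abel

end ident

/-- matrices inducing elements of `K` -/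
def HH (D : Dat K) (α β : F) (i1 i2 i3 : ι) : Subgroup (GL (Fin 2) F) where
  carrier := {X | ∃ g ∈ K, Sup g ({i1, i2, i3} : Finset ι) ∧ Rp α β i1 i2 i3 X g}
  one_mem' := ⟨1, K.one_mem, fun j _ => rfl, fun v _ => by
    show m α β i1 i2 i3 v * ((1 : GL (Fin 2) F) : Matrix (Fin 2) (Fin 2) F) = _
    rw [Units.val_one, mul_one, one_mul]⟩
  mul_mem' := by
    rintro X Y ⟨g, hg, hs, hr⟩ ⟨g', hg', hs', hr'⟩
    refine ⟨g * g', K.mul_mem hg hg', sup_mul' hs hs', fun v hv => ?_⟩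
    show m α β i1 i2 i3 (g (g' v)) * ((X * Y : GL (Fin 2) F) : Matrix (Fin 2) (Fin 2) F) = _
    rw [Units.val_mul, ← mul_assoc, hr _ (VI_map D hg' hs' hv), mul_assoc, hr' v hv, mul_assoc]
  inv_mem' := by
    rintro X ⟨g, hg, hs, hr⟩
    refine ⟨g⁻¹, K.inv_mem hg, (sup_inv' hs), fun v hv => ?_⟩
    have h1 := hr _ (VI_map D (K.inv_mem hg) (sup_inv' hs) hv)
    have h2 : g (g⁻¹ v) = v := LinearEquiv.apply_symm_apply g v
    rw [h2] at h1
    have h3 : ((X⁻¹ : GL (Fin 2) F) : Matrix (Fin 2) (Fin 2) F) * (X : Matrix (Fin 2) (Fin 2) F) = 1 := by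
      rw [← Units.val_mul, inv_mul_cancel, Units.val_one]
    have h4 : (X : Matrix (Fin 2) (Fin 2) F) * ((X⁻¹ : GL (Fin 2) F) : Matrix (Fin 2) (Fin 2) F) = 1 := by
      rw [← Units.val_mul, mul_inv_cancel, Units.val_one]
    calc m α β i1 i2 i3 (g⁻¹ v) * ((X⁻¹ : GL (Fin 2) F) : Matrix (Fin 2) (Fin 2) F)
        = ((X⁻¹ : GL (Fin 2) F) : Matrix (Fin 2) (Fin 2) F) * ((X : Matrix (Fin 2) (Fin 2) F) *
            m α β i1 i2 i3 (g⁻¹ v)) * ((X⁻¹ : GL (Fin 2) F) : Matrix (Fin 2) (Fin 2) F) := by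
          rw [← mul_assoc, h3, one_mul]
      _ = ((X⁻¹ : GL (Fin 2) F) : Matrix (Fin 2) (Fin 2) F) * m α β i1 i2 i3 v *
            ((X : Matrix (Fin 2) (Fin 2) F) * ((X⁻¹ : GL (Fin 2) F) : Matrix (Fin 2) (Fin 2) F)) := by
          rw [← h1]; simp only [mul_assoc]
      _ = _ := by rw [h4, mul_one]

theorem mem_HH {D : Dat K} {α β : F} {i1 i2 i3 : ι} {X : GL (Fin 2) F} : X ∈ HH D α β i1 i2 i3 ↔
    ∃ g ∈ K, Sup g ({i1, i2, i3} : Finset ι) ∧ Rp α β i1 i2 i3 X g := Iff.rfl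

section elts
variable {α β : F} (hab : α * α + β * β = -1) {i1 i2 i3 : ι} (h12 : i1 ≠ i2) (h13 : i1 ≠ i3) (h23 : i2 ≠ i3)
  (D : Dat K)
include hab h12 h13 h23

include D in
/-- rotation about `g e_1` -/
theorem rp_one {g : (ι → F) ≃ₗ[F] (ι → F)} (hg : g ∈ K) (hs : Sup g ({i1, i2, i3} : Finset ι)) :
    Rp α β i1 i2 i3 (m α β i1 i2 i3 (g (e i1))) (g * sg i2 i3 * g⁻¹) := by
  have hI : i1 ∈ ({i1, i2, i3} : Finset ι) := by simp
  intro v hv
  set u := g⁻¹ v with hu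
  have hgu : g u = v := LinearEquiv.apply_symm_apply g v
  have huV : VI i1 i2 i3 u := VI_map D (K.inv_mem hg) (sup_inv' hs) hv
  have h1 : (sg i2 i3 : (ι → F) ≃ₗ[F] (ι → F)) u = -u + (2 * (u ⬝ᵥ e i1)) • e i1 := by
    rw [dot_e]
    funext k
    rw [sg_apply, Pi.add_apply, Pi.neg_apply, Pi.smul_apply, e, Pi.single_apply]
    by_cases hk1 : k = i1
    · subst hk1
      rw [if_neg (by simp [h12, h13]), if_pos rfl, smul_eq_mul]; ring
    · rw [if_neg hk1, smul_zero, add_zero]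
      by_cases hk : k = i2 ∨ k = i3
      · rw [if_pos hk]
      · rw [if_neg hk]
        have := huV k (by
          simp only [Finset.mem_insert, Finset.mem_singleton, not_or]
          exact ⟨hk1, fun h => hk (Or.inl h), fun h => hk (Or.inr h)⟩)
        rw [this, neg_zero]
  have h2 : (g * sg i2 i3 * g⁻¹ : (ι → F) ≃ₗ[F] (ι → F)) v = -v + (2 * (u ⬝ᵥ e i1)) • g (e i1) := by
    show g (sg i2 i3 u) = _
    rw [h1, map_add, map_neg, map_smul, hgu]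
  rw [h2]
  apply m_refl hab h12 h13 h23 hv (VI_map D hg hs (VI_e hI))
  rw [D.iso g hg, ← hgu, D.iso g hg]
  simp [e]

/-- the three-cycle -/
def cyc (i1 i2 i3 : ι) : Equiv.Perm ι := Equiv.swap i1 i2 * Equiv.swap i2 i3

omit hab in
theorem cyc_symm : (cyc i1 i2 i3).symm i1 = i3 ∧ (cyc i1 i2 i3).symm i2 = i1 ∧ (cyc i1 i2 i3).symm i3 = i2 ∧
    ∀ j, j ∉ ({i1, i2, i3} : Finset ι) → (cyc i1 i2 i3).symm j = j := by
  have e3 : cyc i1 i2 i3 i3 = i1 := by simp [cyc]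
  have e1 : cyc i1 i2 i3 i1 = i2 := by
    rw [cyc, Equiv.Perm.mul_apply, Equiv.swap_apply_of_ne_of_ne h12 h13, Equiv.swap_apply_left]
  have e2 : cyc i1 i2 i3 i2 = i3 := by
    rw [cyc, Equiv.Perm.mul_apply, Equiv.swap_apply_left, Equiv.swap_apply_of_ne_of_ne h13.symm h23.symm]
  refine ⟨?_, ?_, ?_, ?_⟩
  · rw [Equiv.symm_apply_eq, e3]
  · rw [Equiv.symm_apply_eq, e1]
  · rw [Equiv.symm_apply_eq, e2]
  · intro j hj
    simp only [Finset.mem_insert, Finset.mem_singleton, not_or] at hj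
    rw [Equiv.symm_apply_eq, cyc, Equiv.Perm.mul_apply, Equiv.swap_apply_of_ne_of_ne hj.2.1 hj.2.2,
      Equiv.swap_apply_of_ne_of_ne hj.1 hj.2.1]

omit hab h12 h13 h23 in
theorem sup_cyc (h12 : i1 ≠ i2) (h13 : i1 ≠ i3) (h23 : i2 ≠ i3) :
    Sup (pm (cyc i1 i2 i3) : (ι → F) ≃ₗ[F] (ι → F)) ({i1, i2, i3} : Finset ι) := by
  intro j hj
  have h1 := (cyc_symm h12 h13 h23).2.2.2 j hj
  rw [Equiv.symm_apply_eq] at h1
  rw [pm_e, ← h1]

omit hab in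
include D in
theorem pm_cyc_mem : (pm (cyc i1 i2 i3) : (ι → F) ≃ₗ[F] (ι → F)) ∈ K := by
  apply D.pm
  rw [cyc, map_mul, Equiv.Perm.sign_swap h12, Equiv.Perm.sign_swap h23]
  rfl

omit hab in
/-- action of the three-cycle as a product of two rotations -/
theorem cyc_act {u : ι → F} (hu : VI i1 i2 i3 u) :
    (pm (cyc i1 i2 i3) : (ι → F) ≃ₗ[F] (ι → F)) u =
      -(-u + (u ⬝ᵥ (e i2 - e i3)) • (e i2 - e i3)) +
        ((-u + (u ⬝ᵥ (e i2 - e i3)) • (e i2 - e i3)) ⬝ᵥ (e i1 - e i2)) • (e i1 - e i2) := by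
  obtain ⟨c1, c2, c3, c4⟩ := cyc_symm h12 h13 h23
  have d1 : u ⬝ᵥ (e i2 - e i3) = u i2 - u i3 := by rw [dotProduct_sub, dot_e, dot_e]
  rw [d1]
  set u' := -u + (u i2 - u i3) • ((e i2 : ι → F) - e i3) with hu'
  have d2 : u' ⬝ᵥ (e i1 - e i2) = u' i1 - u' i2 := by rw [dotProduct_sub, dot_e, dot_e]
  rw [d2]
  have v1 : u' i1 = - u i1 := by
    rw [hu']; simp [e, h12, h13]
  have v2 : u' i2 = - u i3 := by
    rw [hu']; simp [e, h23]; ring
  have v3 : u' i3 = - u i2 := by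
    rw [hu']; simp [e, h23.symm]; ring
  funext k
  rw [pm_apply, Pi.add_apply, Pi.neg_apply, Pi.smul_apply, Pi.sub_apply, smul_eq_mul]
  by_cases k1 : k = i1
  · subst k1
    rw [c1, v1, v2]
    simp [e, h12]
  · by_cases k2 : k = i2
    · subst k2
      rw [c2, v1, v2]
      simp [e, h12.symm]
    · by_cases k3 : k = i3
      · subst k3
        rw [c3, v3]
        simp [e, h13.symm, h23.symm]
      · have hk : k ∉ ({i1, i2, i3} : Finset ι) := by simp [k1, k2, k3]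
        rw [c4 k hk, hu k hk]
        have : u' k = 0 := by
          rw [hu', Pi.add_apply, Pi.neg_apply, hu k hk]
          simp [e, k2, k3]
        rw [this]
        simp [e, k1, k2]

include D in
theorem rp_three {g : (ι → F) ≃ₗ[F] (ι → F)} (hg : g ∈ K) (hs : Sup g ({i1, i2, i3} : Finset ι)) :
    Rp α β i1 i2 i3 (m α β i1 i2 i3 (g (e i1 - e i2)) * m α β i1 i2 i3 (g (e i2 - e i3)))
      (g * pm (cyc i1 i2 i3) * g⁻¹) := by
  have hI1 : i1 ∈ ({i1, i2, i3} : Finset ι) := by simp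
  have hI2 : i2 ∈ ({i1, i2, i3} : Finset ι) := by simp
  have hI3 : i3 ∈ ({i1, i2, i3} : Finset ι) := by simp
  intro v hv
  set u := g⁻¹ v with hu
  have hgu : g u = v := LinearEquiv.apply_symm_apply g v
  have huV : VI i1 i2 i3 u := VI_map D (K.inv_mem hg) (sup_inv' hs) hv
  have ha : VI i1 i2 i3 ((e i1 : ι → F) - e i2) := (VI_e hI1).sub (VI_e hI2)
  have hb : VI i1 i2 i3 ((e i2 : ι → F) - e i3) := (VI_e hI2).sub (VI_e hI3)
  have h1 := cyc_act h12 h13 h23 huV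
  set u' := -u + (u ⬝ᵥ (e i2 - e i3)) • ((e i2 : ι → F) - e i3) with hu'
  have hu'V : VI i1 i2 i3 u' := huV.neg.add (hb.smul _)
  have h2 : (g * pm (cyc i1 i2 i3) * g⁻¹ : (ι → F) ≃ₗ[F] (ι → F)) v = -(g u') + (u' ⬝ᵥ (e i1 - e i2)) • g (e i1 - e i2) := by
    show g (pm (cyc i1 i2 i3) u) = _
    rw [h1, map_add, map_neg, map_smul]
  have h3 : g u' = -v + (u ⬝ᵥ (e i2 - e i3)) • g (e i2 - e i3) := by
    rw [hu', map_add, map_neg, map_smul, hgu]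
  have naa : ((e i1 : ι → F) - e i2) ⬝ᵥ (e i1 - e i2) = 2 := by
    rw [dotProduct_sub, dot_e, dot_e]; simp [e, h12, h12.symm]; norm_num
  have nbb : ((e i2 : ι → F) - e i3) ⬝ᵥ (e i2 - e i3) = 2 := by
    rw [dotProduct_sub, dot_e, dot_e]; simp [e, h23, h23.symm]; norm_num
  rw [h2, ← mul_assoc, m_refl hab h12 h13 h23 (VI_map D hg hs hu'V) (VI_map D hg hs ha), mul_assoc, h3,
    m_refl hab h12 h13 h23 hv (VI_map D hg hs hb), mul_assoc]
  · rw [D.iso g hg, ← hgu, D.iso g hg, nbb]; ring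
  · rw [D.iso g hg, D.iso g hg, naa]; ring

end elts

end H79.FrP11
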