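import Mathlib
import Cfsg.Agent.Lib.H52.P11D

set_option autoImplicit false
set_option linter.style.haveILetI false
set_option maxRecDepth 100000

/-! P11: Dickson's theorem for subgroups of `PGL₂(p)` containing the relations of `Sym(4)`. -/

namespace H79.FrP11

open MulAction Matrix OnePoint H98.Moebius H98.DicksonField H98.DicksonPGL H98.Dickson H98.DicksonPSL Subgroup H52.P11D
open scoped H98.Moebius commutatorElement

theorem a4_dec : ∀ σ : Equiv.Perm (Fin 4), Equiv.Perm.sign σ = 1 → σ ^ 4 = 1 → σ ^ 2 = 1 := by decide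
theorem a5_dec : ∀ σ : Equiv.Perm (Fin 5), Equiv.Perm.sign σ = 1 → σ ^ 4 = 1 → σ ^ 2 = 1 := by decide

theorem dih_no {n : ℕ} {a b t : DihedralGroup n} (b1 : b ≠ 1) (hab : a ≠ b) (ta : t * a * t⁻¹ = b)
    (tb : t * b * t⁻¹ = a * b) (t3 : t ^ 3 = 1) : False := by
  have ht : ∃ i : ZMod n, t = DihedralGroup.r i := by
    cases h : t with
    | r i => exact ⟨i, rfl⟩
    | sr i =>
      exfalso
      have e1 : t * t = 1 := by rw [h, DihedralGroup.sr_mul_self]
      have e2 : t = 1 := by
        rw [pow_succ, pow_two, e1, one_mul] at t3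
        exact t3
      rw [e2] at ta
      apply hab
      rw [← ta]; group
  obtain ⟨i, rfl⟩ := ht
  cases a with
  | r j =>
    apply hab
    rw [← ta, DihedralGroup.r_mul_r, add_comm, ← DihedralGroup.r_mul_r, mul_assoc, mul_inv_cancel, mul_one]
  | sr j =>
    have hb : ∃ k, b = DihedralGroup.sr k := by
      rw [← ta, DihedralGroup.inv_r, DihedralGroup.r_mul_sr, DihedralGroup.sr_mul_r]
      exact ⟨_, rfl⟩
    obtain ⟨k, rfl⟩ := hb
    rw [DihedralGroup.inv_r, DihedralGroup.r_mul_sr, DihedralGroup.sr_mul_r, DihedralGroup.sr_mul_sr] at tb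
    exact absurd tb (by simp)

theorem dick {F : Type*} [Field F] [Fintype F] [DecidableEq F] (hp : (Fintype.card F).Prime) (h2 : (2 : F) ≠ 0)
    (S : Subgroup (ProjGenLinGroup (Fin 2) F)) (a b t y : ProjGenLinGroup (Fin 2) F)
    (ha : a ∈ S) (hb : b ∈ S) (ht : t ∈ S) (hy : y ∈ S) (a2 : a * a = 1) (b2 : b * b = 1) (b1 : b ≠ 1)
    (hab : a ≠ b) (cab : a * b = b * a) (ta : t * a * t⁻¹ = b) (tb : t * b * t⁻¹ = a * b) (t3 : t ^ 3 = 1)
    (y4 : (y * a) ^ 4 = 1) (y2 : (y * a) ^ 2 ≠ 1) :
    Nonempty (S ≃* Equiv.Perm (Fin 4)) ∨ ∀ x : ProjectiveSpecialLinearGroup (Fin 2) F,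
      ProjectiveSpecialLinearGroup.toPGL x ∈ S := by
  classical
  set p := Fintype.card F with hpF
  haveI : Fact p.Prime := ⟨hp⟩
  haveI : CharP F p := by
    obtain ⟨q, hq⟩ := CharP.exists F
    obtain ⟨n, hqp, hn⟩ := FiniteField.card F q
    have h3 : q = p := by
      have h4 : q ∣ p := by rw [hpF, hn]; exact dvd_pow_self q n.pos.ne'
      exact (Nat.prime_dvd_prime_iff_eq hqp hp).mp h4
    rw [← h3]; exact hq
  have hp2 : p ≠ 2 := by
    intro h
    apply h2
    have := CharP.cast_eq_zero F p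
    rw [h] at this
    exact_mod_cast this
  have hfin : Finite (ProjGenLinGroup (Fin 2) F) := inferInstanceAs (Finite (_ ⧸ _))
  have hσ : Function.Injective S.subtype := S.subtype_injective
  set a' : S := ⟨a, ha⟩ with ha'
  set b' : S := ⟨b, hb⟩ with hb'
  set t' : S := ⟨t, ht⟩ with ht'
  set y' : S := ⟨y, hy⟩ with hy'
  have ta' : t' * a' * t'⁻¹ = b' := Subtype.ext ta
  have tb' : t' * b' * t'⁻¹ = a' * b' := Subtype.ext tb
  have t3' : t' ^ 3 = 1 := Subtype.ext t3
  have hab' : a' ≠ b' := fun h => hab (congrArg Subtype.val h)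
  have b1' : b' ≠ 1 := fun h => b1 (congrArg Subtype.val h)
  have y4' : (y' * a') ^ 4 = 1 := Subtype.ext y4
  have y2' : (y' * a') ^ 2 ≠ 1 := fun h => y2 (congrArg Subtype.val h)
  rcases dickson_pgl p S.subtype hσ with ⟨hp1, hcyc⟩ | ⟨c, hc2, hcp, -, ⟨e⟩⟩ | ⟨hpH, x₀, hfix, g, hg, hgx⟩ | ⟨h1, h3, ⟨e⟩⟩ | ⟨h1, h3, h⟩ | ⟨h1, h3, ⟨e⟩⟩ |
      ⟨P, K, h, hK, hcase⟩
  · exfalso
    letI := IsCyclic.commGroup (α := S)
    apply hab'
    rw [← ta', mul_comm t' a', mul_assoc, mul_inv_cancel, mul_one]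
  · exfalso
    refine dih_no (a := e a') (b := e b') (t := e t') ?_ ?_ ?_ ?_ ?_
    · intro h; exact b1' (e.injective (by rw [h, map_one]))
    · intro h; exact hab' (e.injective h)
    · rw [← map_inv, ← map_mul, ← map_mul, ta']
    · rw [← map_inv, ← map_mul, ← map_mul, tb', map_mul]
    · rw [← map_pow, t3', map_one]
  · exfalso
    obtain ⟨h3, -⟩ := commutator_of_fixed p S.subtype hσ x₀ hfix
    have h4 : (b' * a'⁻¹) ^ p = 1 := by
      apply h3
      have : b' * a'⁻¹ = ⁅t', a'⁆ := by rw [commutatorElement_def, ta']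
      rw [this, _root_.commutator_def]
      exact Subgroup.commutator_mem_commutator (mem_top _) (mem_top _)
    have h5 : (b' * a'⁻¹) ^ 2 = 1 := by
      apply Subtype.ext
      show (b * a⁻¹) ^ 2 = 1
      have : a⁻¹ = a := (eq_inv_of_mul_eq_one_left a2).symm
      rw [this, pow_two]
      calc b * a * (b * a) = (b * a) * (b * a) := rfl
        _ = (a * b) * (b * a) := by rw [cab]
        _ = a * (b * b) * a := by group
        _ = 1 := by rw [b2, mul_one, a2]
    obtain ⟨k, hk⟩ := hp.odd_of_ne_two hp2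
    rw [hk, pow_succ, pow_mul, h5, one_pow, one_mul] at h4
    exact hab' (mul_inv_eq_one.1 h4).symm
  · exfalso
    apply y2'
    apply e.injective
    apply Subtype.ext
    rw [map_pow, map_one]
    exact a4_dec _ (Equiv.Perm.mem_alternatingGroup.1 (e (y' * a')).2) (by
      have := congrArg (fun x : alternatingGroup (Fin 4) => (x : Equiv.Perm (Fin 4))) (congrArg e y4')
      simpa using this)
  · exact Or.inl h
  · exfalso
    apply y2'
    apply e.injective
    apply Subtype.ext
    rw [map_pow, map_one]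
    exact a5_dec _ (Equiv.Perm.mem_alternatingGroup.1 (e (y' * a')).2) (by
      have := congrArg (fun x : alternatingGroup (Fin 5) => (x : Equiv.Perm (Fin 5))) (congrArg e y4')
      simpa using this)
  · right
    have hKs : Function.Surjective K.subtype := fun x => ⟨⟨x, subfield_top hp K x⟩, rfl⟩
    have hrange : (ProjectiveSpecialLinearGroup.toPGL : ProjectiveSpecialLinearGroup (Fin 2) F →* _).range ≤
        S.subtype.range.map (MulAut.conj h).toMonoidHom := by
      have hb : (pslHom K.subtype).range ≤ S.subtype.range.map (MulAut.conj h).toMonoidHom := by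
        rcases hcase with h3 | ⟨-, h3⟩
        · rw [h3]
          rintro _ ⟨g, rfl⟩
          exact ⟨ProjectiveSpecialLinearGroup.toPGL g, rfl⟩
        · rw [h3]
      have hid : ProjectiveSpecialLinearGroup.toPGL = pslHom (RingHom.id F) := by
        rw [pslHom, ProjGenLinGroup.map_id, MonoidHom.id_comp]
      rw [hid]
      apply range_pslHom_le
      · intro b
        obtain ⟨b', hb'⟩ := hKs b
        rw [RingHom.id_apply, ← hb', ← pslHom_up]
        exact hb ⟨_, rfl⟩
      · intro b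
        obtain ⟨b', hb'⟩ := hKs b
        rw [RingHom.id_apply, ← hb', ← pslHom_lo]
        exact hb ⟨_, rfl⟩
    intro x
    obtain ⟨s', hs'⟩ := range_conj h x
    obtain ⟨_, ⟨y, rfl⟩, hy⟩ := hrange ⟨s', rfl⟩
    have h3 : h * (y : ProjGenLinGroup (Fin 2) F) * h⁻¹ = h * ProjectiveSpecialLinearGroup.toPGL x * h⁻¹ := by
      rw [hs']; exact hy
    rw [← mul_left_cancel (mul_right_cancel h3)]
    exact y.2

end H79.FrP11
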