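import Mathlib
import Cfsg.Agent.Lib.H79.FrP11b
import Cfsg.Agent.Lib.H79.FrP11c
import Cfsg.Agent.Lib.H25.FrTr
import Cfsg.Agent.Lib.H64.P11M

set_option autoImplicit false
set_option maxRecDepth 100000

/-! P11: transitivity of the 3-coordinate subgroups. -/

namespace H79.FrP11

open Matrix H96.Fr Subgroup
open scoped Pointwise

theorem s4_dec1 : ∀ t a : Equiv.Perm (Fin 4), t ^ 3 = 1 → a * a = 1 → a * (t * a * t⁻¹) = (t * a * t⁻¹) * a →
    t * a * t⁻¹ ≠ a → Equiv.Perm.sign a = 1 := by decide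
theorem s4_dec2 : ∀ a σ : Equiv.Perm (Fin 4), Equiv.Perm.sign a = 1 → a * a = 1 → Equiv.Perm.sign σ = 1 →
    σ * σ = 1 → a * σ = σ * a := by decide

section pgl
variable {F : Type*} [Field F]

theorem mk_eq_of {X Y : GL (Fin 2) F} {c : F} (hc : c ≠ 0)
    (h : (X : Matrix (Fin 2) (Fin 2) F) = c • (Y : Matrix (Fin 2) (Fin 2) F)) :
    ProjGenLinGroup.mk X = ProjGenLinGroup.mk Y := by
  symm
  rw [ProjGenLinGroup.mk_eq_mk_iff]
  refine ⟨Units.mk0 c hc, ?_⟩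
  apply Units.ext
  rw [h]
  ext i j
  simp [Matrix.GeneralLinearGroup.scalar, mul_comm]

theorem mk_eq_imp {X Y : GL (Fin 2) F} (h : ProjGenLinGroup.mk X = ProjGenLinGroup.mk Y) :
    ∃ c : F, c ≠ 0 ∧ (Y : Matrix (Fin 2) (Fin 2) F) = c • (X : Matrix (Fin 2) (Fin 2) F) := by
  rw [ProjGenLinGroup.mk_eq_mk_iff] at h
  obtain ⟨u, rfl⟩ := h
  refine ⟨u, u.ne_zero, ?_⟩
  ext i j
  simp [Matrix.GeneralLinearGroup.scalar, mul_comm]

/-- matrices with non-zero determinant -/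
noncomputable def gl (M : Matrix (Fin 2) (Fin 2) F) (h : M.det ≠ 0) : GL (Fin 2) F :=
  Matrix.GeneralLinearGroup.mkOfDetNeZero M h

theorem gl_val (M : Matrix (Fin 2) (Fin 2) F) (h : M.det ≠ 0) : (gl M h : Matrix (Fin 2) (Fin 2) F) = M := rfl

end pgl

variable {ι F : Type*} [Fintype ι] [DecidableEq ι] [Field F] {K : Subgroup ((ι → F) ≃ₗ[F] (ι → F))}

section main
variable {α β : F} (hab : α * α + β * β = -1) {i1 i2 i3 : ι} (h12 : i1 ≠ i2) (h13 : i1 ≠ i3) (h23 : i2 ≠ i3)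
  (D : Dat K) (h2 : (2 : F) ≠ 0)
include hab h12 h13 h23

theorem m_det {v : ι → F} (hv : VI i1 i2 i3 v) : (m α β i1 i2 i3 v).det = v ⬝ᵥ v := by
  rw [m, mt_det hab, dot_VI h12 h13 h23 hv]

theorem conj_norm (h2 : (2 : F) ≠ 0) {l l' : ι} (hl : l ∉ ({i1, i2, i3} : Finset ι)) (hl' : l' ∉ ({i1, i2, i3} : Finset ι))
    (hll : l ≠ l') (Y : GL (Fin 2) F) (hY : (Y : Matrix (Fin 2) (Fin 2) F) = m α β i1 i2 i3 (e i1 - e i2))
    {X : GL (Fin 2) F} (hX : X ∈ HH D α β i1 i2 i3) : Y * X * Y⁻¹ ∈ HH D α β i1 i2 i3 := by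
  obtain ⟨g, hg, hs, hr⟩ := hX
  set σ : Equiv.Perm ι := Equiv.swap i1 i2 * Equiv.swap l l' with hσ
  simp only [Finset.mem_insert, Finset.mem_singleton, not_or] at hl hl'
  have hcK : (pm σ : (ι → F) ≃ₗ[F] (ι → F)) ∈ K := by
    apply D.pm
    rw [hσ, map_mul, Equiv.Perm.sign_swap h12, Equiv.Perm.sign_swap hll]
    rfl
  have hσσ : σ * σ = 1 := by
    rw [hσ]
    have hc : Equiv.swap i1 i2 * Equiv.swap l l' = Equiv.swap l l' * Equiv.swap i1 i2 := by
      apply Equiv.Perm.Disjoint.commute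
      rw [Equiv.Perm.disjoint_iff_disjoint_support, Equiv.Perm.support_swap h12, Equiv.Perm.support_swap hll]
      rw [Finset.disjoint_left]
      intro x hx hx'
      simp only [Finset.mem_insert, Finset.mem_singleton] at hx hx'
      rcases hx with rfl | rfl <;> rcases hx' with rfl | rfl
      · exact hl.1 rfl
      · exact hl'.1 rfl
      · exact hl.2.1 rfl
      · exact hl'.2.1 rfl
    calc Equiv.swap i1 i2 * Equiv.swap l l' * (Equiv.swap i1 i2 * Equiv.swap l l')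
        = Equiv.swap i1 i2 * Equiv.swap l l' * (Equiv.swap l l' * Equiv.swap i1 i2) := by rw [hc]
      _ = Equiv.swap i1 i2 * (Equiv.swap l l' * Equiv.swap l l') * Equiv.swap i1 i2 := by simp only [mul_assoc]
      _ = 1 := by rw [Equiv.swap_mul_self, mul_one, Equiv.swap_mul_self]
  have hsymm : σ.symm = σ := by
    have : σ⁻¹ = σ := (eq_inv_of_mul_eq_one_left hσσ).symm
    exact this
  have s1 : σ i1 = i2 := by
    rw [hσ, Equiv.Perm.mul_apply, Equiv.swap_apply_of_ne_of_ne (Ne.symm hl.1) (Ne.symm hl'.1), Equiv.swap_apply_left]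
  have s2 : σ i2 = i1 := by
    rw [hσ, Equiv.Perm.mul_apply, Equiv.swap_apply_of_ne_of_ne (Ne.symm hl.2.1) (Ne.symm hl'.2.1),
      Equiv.swap_apply_right]
  have s3 : σ i3 = i3 := by
    rw [hσ, Equiv.Perm.mul_apply, Equiv.swap_apply_of_ne_of_ne (Ne.symm hl.2.2) (Ne.symm hl'.2.2),
      Equiv.swap_apply_of_ne_of_ne h13.symm h23.symm]
  have s4 : ∀ j, j ∉ ({i1, i2, i3} : Finset ι) → σ j ∉ ({i1, i2, i3} : Finset ι) := by
    intro j hj hj'
    apply hj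
    simp only [Finset.mem_insert, Finset.mem_singleton] at hj' ⊢
    rcases hj' with h | h | h
    · right; left; exact σ.injective (h.trans s2.symm)
    · left; exact σ.injective (h.trans s1.symm)
    · right; right; exact σ.injective (h.trans s3.symm)
  have hcv : ∀ (v : ι → F) k, (pm σ : (ι → F) ≃ₗ[F] (ι → F)) v k = v (σ k) := by
    intro v k
    rw [pm_apply, hsymm]
  have hcc : ∀ v : ι → F, (pm σ : (ι → F) ≃ₗ[F] (ι → F)) ((pm σ : (ι → F) ≃ₗ[F] (ι → F)) v) = v := by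
    intro v
    funext k
    rw [hcv, hcv, ← Equiv.Perm.mul_apply, hσσ]; rfl
  have hcV : ∀ v : ι → F, VI i1 i2 i3 v → VI i1 i2 i3 ((pm σ : (ι → F) ≃ₗ[F] (ι → F)) v) := by
    intro v hv j hj
    rw [hcv, hv _ (s4 j hj)]
  have hw : VI i1 i2 i3 ((e i1 : ι → F) - e i2) := (VI_e (by simp)).sub (VI_e (by simp))
  have nww : ((e i1 : ι → F) - e i2) ⬝ᵥ (e i1 - e i2) = 2 := by
    rw [dotProduct_sub, dot_e, dot_e]; simp [e, h12, h12.symm]; norm_num
  have hm : ∀ v : ι → F, VI i1 i2 i3 v → m α β i1 i2 i3 ((pm σ : (ι → F) ≃ₗ[F] (ι → F)) v) *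
      (Y : Matrix (Fin 2) (Fin 2) F) = - ((Y : Matrix (Fin 2) (Fin 2) F) * m α β i1 i2 i3 v) := by
    intro v hv
    have h5 := m_refl hab h12 h13 h23 hv hw (c := v ⬝ᵥ (e i1 - e i2)) (by rw [nww]; ring)
    have d1 : v ⬝ᵥ (e i1 - e i2) = v i1 - v i2 := by rw [dotProduct_sub, dot_e, dot_e]
    have h6 : m α β i1 i2 i3 (-v + (v ⬝ᵥ (e i1 - e i2)) • (e i1 - e i2)) =
        - m α β i1 i2 i3 ((pm σ : (ι → F) ≃ₗ[F] (ι → F)) v) := by
      rw [d1, m, m, hcv, hcv, hcv, s1, s2, s3]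
      have w1 : (-v + (v i1 - v i2) • ((e i1 : ι → F) - e i2) : ι → F) i1 = - v i2 := by
        simp [e, h12]; ring
      have w2 : (-v + (v i1 - v i2) • ((e i1 : ι → F) - e i2) : ι → F) i2 = - v i1 := by
        simp [e, h12.symm]; ring
      have w3 : (-v + (v i1 - v i2) • ((e i1 : ι → F) - e i2) : ι → F) i3 = - v i3 := by
        simp [e, h13.symm, h23.symm]
      rw [w1, w2, w3, mt, mt]
      ext i j
      fin_cases i <;> fin_cases j <;> simp <;> ring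
    rw [h6, ← hY, neg_mul] at h5
    rw [← h5, neg_neg]
  refine ⟨pm σ * g * pm σ, K.mul_mem (K.mul_mem hcK hg) hcK, ?_, ?_⟩
  · intro j hj
    show (pm σ : (ι → F) ≃ₗ[F] (ι → F)) (g ((pm σ : (ι → F) ≃ₗ[F] (ι → F)) (e j))) = e j
    rw [pm_e, hs _ (s4 j hj), pm_e, ← Equiv.Perm.mul_apply, hσσ]; rfl
  · intro v hv
    show m α β i1 i2 i3 ((pm σ : (ι → F) ≃ₗ[F] (ι → F)) (g ((pm σ : (ι → F) ≃ₗ[F] (ι → F)) v))) * _ = _
    have e1 := hm _ (VI_map D hg hs (hcV v hv))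
    have e2 := hr _ (hcV v hv)
    have e3 := hm _ (hcV v hv)
    rw [hcc] at e3
    have e4 : (Y : Matrix (Fin 2) (Fin 2) F) * ((Y⁻¹ : GL (Fin 2) F) : Matrix (Fin 2) (Fin 2) F) = 1 := by
      rw [← Units.val_mul, mul_inv_cancel, Units.val_one]
    have e5 : ((Y⁻¹ : GL (Fin 2) F) : Matrix (Fin 2) (Fin 2) F) * (Y : Matrix (Fin 2) (Fin 2) F) = 1 := by
      rw [← Units.val_mul, inv_mul_cancel, Units.val_one]
    rw [Units.val_mul, Units.val_mul]
    generalize (Y : Matrix (Fin 2) (Fin 2) F) = Ym at *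
    generalize ((Y⁻¹ : GL (Fin 2) F) : Matrix (Fin 2) (Fin 2) F) = Yi at *
    generalize m α β i1 i2 i3 ((pm σ : (ι → F) ≃ₗ[F] (ι → F)) (g ((pm σ : (ι → F) ≃ₗ[F] (ι → F)) v))) = P at *
    generalize m α β i1 i2 i3 (g ((pm σ : (ι → F) ≃ₗ[F] (ι → F)) v)) = P1 at *
    generalize m α β i1 i2 i3 ((pm σ : (ι → F) ≃ₗ[F] (ι → F)) v) = P2 at *
    generalize m α β i1 i2 i3 v = P3 at *
    calc P * (Ym * (X : Matrix (Fin 2) (Fin 2) F) * Yi) = (P * Ym) * (X : Matrix (Fin 2) (Fin 2) F) * Yi := by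
          simp only [mul_assoc]
      _ = -(Ym * (P1 * (X : Matrix (Fin 2) (Fin 2) F)) * Yi) := by rw [e1, neg_mul, neg_mul]; simp only [mul_assoc]
      _ = -(Ym * (X : Matrix (Fin 2) (Fin 2) F) * (1 * P2) * Yi) := by rw [e2, one_mul]; simp only [mul_assoc]
      _ = -(Ym * (X : Matrix (Fin 2) (Fin 2) F) * (Yi * Ym * P2) * Yi) := by rw [e5]
      _ = Ym * (X : Matrix (Fin 2) (Fin 2) F) * Yi * (-(Ym * P2)) * Yi := by
          simp only [mul_assoc, mul_neg, neg_mul]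
      _ = Ym * (X : Matrix (Fin 2) (Fin 2) F) * Yi * P3 * (Ym * Yi) := by rw [← e3]; simp only [mul_assoc]
      _ = Ym * (X : Matrix (Fin 2) (Fin 2) F) * Yi * P3 := by rw [e4, mul_one]

include h2 in
theorem comm_dec {v w : ι → F} (hv : VI i1 i2 i3 v) (hw : VI i1 i2 i3 w) (hww : w ⬝ᵥ w = 1) {c : F}
    (h : m α β i1 i2 i3 w * m α β i1 i2 i3 v = c • (m α β i1 i2 i3 v * m α β i1 i2 i3 w)) :
    v ⬝ᵥ w = 0 ∨ ∃ d : F, v = d • w := by
  have h1 := m_anti hab h12 h13 h23 (w := w) hv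
  have h3 := m_sq hab h12 h13 h23 hw
  rw [hww] at h3
  rw [h] at h1
  have h4 : (1 + c) • m α β i1 i2 i3 v = (2 * (v ⬝ᵥ w)) • m α β i1 i2 i3 w := by
    have h5 := congrArg (fun M => M * m α β i1 i2 i3 w) h1
    simp only [add_mul, smul_mul_assoc, mul_assoc, h3, one_mul] at h5
    rw [mul_smul_comm, mul_one] at h5
    have h6 : (1 + c) • m α β i1 i2 i3 v = -(c • (-1 : F) • m α β i1 i2 i3 v + (-1 : F) • m α β i1 i2 i3 v) := by
      module
    rw [h6, h5]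
    module
  by_cases hc : 1 + c = 0
  · left
    rw [hc, zero_smul] at h4
    by_contra hne
    have h5 : (2 * (v ⬝ᵥ w)) ≠ 0 := mul_ne_zero h2 hne
    have h6 : m α β i1 i2 i3 w = 0 := (smul_eq_zero.1 h4.symm).resolve_left h5
    rw [h6, mul_zero] at h3
    have h7 := congrFun (congrFun h3 0) 0
    simp at h7
  · right
    refine ⟨(1 + c)⁻¹ * (2 * (v ⬝ᵥ w)), ?_⟩
    set d := (1 + c)⁻¹ * (2 * (v ⬝ᵥ w)) with hd
    have h5 : m α β i1 i2 i3 v = m α β i1 i2 i3 (d • w) := by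
      have h6 : m α β i1 i2 i3 (d • w) = d • m α β i1 i2 i3 w := by
        simp only [m, mt, Pi.smul_apply, smul_eq_mul]
        ext i j
        fin_cases i <;> fin_cases j <;> simp <;> ring
      rw [h6, hd, mul_smul, ← h4, smul_smul, inv_mul_cancel₀ hc, one_smul]
    obtain ⟨a1, a2, a3⟩ := mt_inj h2 hab h5
    funext k
    by_cases hk : k ∈ ({i1, i2, i3} : Finset ι)
    · simp only [Finset.mem_insert, Finset.mem_singleton] at hk
      rcases hk with rfl | rfl | rfl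
      · exact a1
      · exact a2
      · exact a3
    · rw [hv k hk, Pi.smul_apply, hw k hk, smul_zero]

end main

end H79.FrP11
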