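import Mathlib
import Cfsg.Agent.Lib.H79.FrP11d

set_option autoImplicit false
set_option maxRecDepth 100000

/-! P11: transitivity of the 3-coordinate subgroups, conclusion. -/

namespace H79.FrP11

open Matrix H96.Fr Subgroup
open scoped Pointwise

variable {ι F : Type*} [Fintype ι] [DecidableEq ι] [Field F] {K : Subgroup ((ι → F) ≃ₗ[F] (ι → F))}

section main
variable {α β : F} (hab : α * α + β * β = -1) {i1 i2 i3 : ι} (h12 : i1 ≠ i2) (h13 : i1 ≠ i3) (h23 : i2 ≠ i3)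
  (D : Dat K) (h2 : (2 : F) ≠ 0)
include hab h12 h13 h23

theorem norm_e (k : ι) : (e k : ι → F) ⬝ᵥ e k = 1 := by rw [dot_e]; simp [e]

include D in
theorem det_one {g : (ι → F) ≃ₗ[F] (ι → F)} (hg : g ∈ K) (hs : Sup g ({i1, i2, i3} : Finset ι)) :
    (m α β i1 i2 i3 (g (e i1))).det ≠ 0 := by
  rw [m_det hab h12 h13 h23 (VI_map D hg hs (VI_e (by simp))), D.iso g hg, dot_e]
  simp [e]

include D h2 in
theorem det_three {g : (ι → F) ≃ₗ[F] (ι → F)} (hg : g ∈ K) (hs : Sup g ({i1, i2, i3} : Finset ι)) :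
    (m α β i1 i2 i3 (g (e i1 - e i2)) * m α β i1 i2 i3 (g (e i2 - e i3))).det ≠ 0 := by
  have hI1 : i1 ∈ ({i1, i2, i3} : Finset ι) := by simp
  have hI2 : i2 ∈ ({i1, i2, i3} : Finset ι) := by simp
  have hI3 : i3 ∈ ({i1, i2, i3} : Finset ι) := by simp
  have naa : ((e i1 : ι → F) - e i2) ⬝ᵥ (e i1 - e i2) = 2 := by
    rw [dotProduct_sub, dot_e, dot_e]; simp [e, h12, h12.symm]; norm_num
  have nbb : ((e i2 : ι → F) - e i3) ⬝ᵥ (e i2 - e i3) = 2 := by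
    rw [dotProduct_sub, dot_e, dot_e]; simp [e, h23, h23.symm]; norm_num
  rw [det_mul, m_det hab h12 h13 h23 (VI_map D hg hs ((VI_e hI1).sub (VI_e hI2))),
    m_det hab h12 h13 h23 (VI_map D hg hs ((VI_e hI2).sub (VI_e hI3))), D.iso g hg, D.iso g hg, naa, nbb]
  exact mul_ne_zero h2 h2

/-- the class of the rotation about `g e₁` -/
noncomputable def wc (D : Dat K) {g : (ι → F) ≃ₗ[F] (ι → F)} (hg : g ∈ K) (hs : Sup g ({i1, i2, i3} : Finset ι)) : GL (Fin 2) F :=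
  gl _ (det_one hab h12 h13 h23 D hg hs)

/-- the class of the conjugate three-cycle -/
noncomputable def tc (D : Dat K) (h2 : (2 : F) ≠ 0) {g : (ι → F) ≃ₗ[F] (ι → F)} (hg : g ∈ K) (hs : Sup g ({i1, i2, i3} : Finset ι)) :
    GL (Fin 2) F := gl _ (det_three hab h12 h13 h23 D h2 hg hs)

theorem wc_mem {g : (ι → F) ≃ₗ[F] (ι → F)} (hg : g ∈ K) (hs : Sup g ({i1, i2, i3} : Finset ι)) :
    wc hab h12 h13 h23 D hg hs ∈ HH D α β i1 i2 i3 := by
  refine ⟨g * sg i2 i3 * g⁻¹, K.mul_mem (K.mul_mem hg (D.sg _ _ h23)) (K.inv_mem hg), ?_,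
    rp_one hab h12 h13 h23 D hg hs⟩
  refine sup_mul' (sup_mul' hs ?_) (sup_inv' hs)
  intro j hj
  simp only [Finset.mem_insert, Finset.mem_singleton, not_or] at hj
  funext k
  rw [sg_apply, e, Pi.single_apply]
  by_cases hk : k = j
  · subst hk; simp [hj.2.1, hj.2.2]
  · simp [hk]

theorem tc_mem {g : (ι → F) ≃ₗ[F] (ι → F)} (hg : g ∈ K) (hs : Sup g ({i1, i2, i3} : Finset ι)) :
    tc hab h12 h13 h23 D h2 hg hs ∈ HH D α β i1 i2 i3 := by
  refine ⟨g * pm (cyc i1 i2 i3) * g⁻¹, K.mul_mem (K.mul_mem hg (pm_cyc_mem h12 h13 h23 D)) (K.inv_mem hg), ?_,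
    rp_three hab h12 h13 h23 D hg hs⟩
  exact sup_mul' (sup_mul' hs (sup_cyc h12 h13 h23)) (sup_inv' hs)

omit hab in
theorem cyc_e : (pm (cyc i1 i2 i3) : (ι → F) ≃ₗ[F] (ι → F)) (e i1) = e i2 ∧
    (pm (cyc i1 i2 i3) : (ι → F) ≃ₗ[F] (ι → F)) (e i2) = e i3 := by
  obtain ⟨c1, c2, c3, c4⟩ := cyc_symm h12 h13 h23
  rw [Equiv.symm_apply_eq] at c2 c3
  rw [pm_e, pm_e, ← c2, ← c3]
  exact ⟨rfl, rfl⟩

/-- the relation between the three-cycle and the rotations -/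
theorem tc_wc {g : (ι → F) ≃ₗ[F] (ι → F)} (hg : g ∈ K) (hs : Sup g ({i1, i2, i3} : Finset ι)) {u : ι → F}
    (hu : VI i1 i2 i3 u) :
    m α β i1 i2 i3 (g ((pm (cyc i1 i2 i3) : (ι → F) ≃ₗ[F] (ι → F)) u)) *
      (tc hab h12 h13 h23 D h2 hg hs : Matrix (Fin 2) (Fin 2) F) =
      (tc hab h12 h13 h23 D h2 hg hs : Matrix (Fin 2) (Fin 2) F) * m α β i1 i2 i3 (g u) := by
  have h3 := rp_three hab h12 h13 h23 D hg hs (g u) (VI_map D hg hs hu)
  have h4 : (g * pm (cyc i1 i2 i3) * g⁻¹ : (ι → F) ≃ₗ[F] (ι → F)) (g u) =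
      g ((pm (cyc i1 i2 i3) : (ι → F) ≃ₗ[F] (ι → F)) u) := by
    show g (pm (cyc i1 i2 i3) (g.symm (g u))) = _
    rw [LinearEquiv.symm_apply_apply]
  rw [h4] at h3
  exact h3

theorem tc_cube {g : (ι → F) ≃ₗ[F] (ι → F)} (hg : g ∈ K) (hs : Sup g ({i1, i2, i3} : Finset ι)) :
    ProjGenLinGroup.mk (tc hab h12 h13 h23 D h2 hg hs) ^ 3 = 1 := by
  have hI1 : i1 ∈ ({i1, i2, i3} : Finset ι) := by simp
  have hI2 : i2 ∈ ({i1, i2, i3} : Finset ι) := by simp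
  have hI3 : i3 ∈ ({i1, i2, i3} : Finset ι) := by simp
  have ha : VI i1 i2 i3 (g ((e i1 : ι → F) - e i2)) := VI_map D hg hs ((VI_e hI1).sub (VI_e hI2))
  have hb : VI i1 i2 i3 (g ((e i2 : ι → F) - e i3)) := VI_map D hg hs ((VI_e hI2).sub (VI_e hI3))
  have naa : ((e i1 : ι → F) - e i2) ⬝ᵥ (e i1 - e i2) = 2 := by
    rw [dotProduct_sub, dot_e, dot_e]; simp [e, h12, h12.symm]; norm_num
  have nbb : ((e i2 : ι → F) - e i3) ⬝ᵥ (e i2 - e i3) = 2 := by
    rw [dotProduct_sub, dot_e, dot_e]; simp [e, h23, h23.symm]; norm_num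
  have nab : ((e i1 : ι → F) - e i2) ⬝ᵥ (e i2 - e i3) = -1 := by
    rw [dotProduct_sub, dot_e, dot_e]; simp [e, h12.symm, h13.symm, h23.symm]
  have q1 := m_sq hab h12 h13 h23 ha
  have q2 := m_sq hab h12 h13 h23 hb
  have q3 := m_anti hab h12 h13 h23 (w := g ((e i2 : ι → F) - e i3)) ha
  rw [D.iso g hg, naa] at q1
  rw [D.iso g hg, nbb] at q2
  rw [D.iso g hg, nab] at q3
  rw [← map_pow, ← map_one ProjGenLinGroup.mk]
  apply mk_eq_of (c := -8)
  · intro h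
    apply h2
    have : (2 : F) ^ 3 = 0 := by linear_combination -h
    exact pow_eq_zero_iff (three_ne_zero) |>.1 this
  · have hv : (tc hab h12 h13 h23 D h2 hg hs : Matrix (Fin 2) (Fin 2) F) =
        m α β i1 i2 i3 (g (e i1 - e i2)) * m α β i1 i2 i3 (g (e i2 - e i3)) := rfl
    rw [Units.val_pow_eq_pow_val, hv, Units.val_one]
    generalize m α β i1 i2 i3 (g (e i1 - e i2)) = P at *
    generalize m α β i1 i2 i3 (g (e i2 - e i3)) = Q at *
    have q3' : Q * P = (2 : F) • (1 : Matrix (Fin 2) (Fin 2) F) - P * Q := by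
      rw [show (2 : F) = -2 * -1 by ring, ← q3]; abel
    have q4 : (P * Q) * (P * Q) = (2 : F) • (P * Q) - (4 : F) • (1 : Matrix (Fin 2) (Fin 2) F) := by
      calc (P * Q) * (P * Q) = P * (Q * P) * Q := by simp only [mul_assoc]
        _ = (2 : F) • (P * Q) - (P * P) * (Q * Q) := by
          rw [q3', mul_sub, sub_mul, mul_smul_comm, mul_one, smul_mul_assoc]; simp only [mul_assoc]
        _ = _ := by
          rw [q1, q2, smul_mul_smul_comm, mul_one]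
          congr 2
          ring
    rw [pow_succ, pow_two, q4, sub_mul, smul_mul_assoc, q4, smul_mul_assoc, one_mul]
    module

end main

end H79.FrP11
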