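import Mathlib
import Cfsg.Agent.Lib.H79.FrP11e

set_option autoImplicit false
set_option maxRecDepth 100000

/-! P11: transitivity of the 3-coordinate subgroups, conclusion. -/

namespace H79.FrP11

open Matrix H96.Fr Subgroup
open scoped Pointwise

variable {ι F : Type*} [Fintype ι] [DecidableEq ι] [Field F] {K : Subgroup ((ι → F) ≃ₗ[F] (ι → F))}

section main
variable {α β : F} (hab : α * α + β * β = -1) {i1 i2 i3 : ι} (h12 : i1 ≠ i2) (h13 : i1 ≠ i3) (h23 : i2 ≠ i3)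
  (D : Dat K) (h2 : (2 : F) ≠ 0)
include hab h12 h13 h23

theorem sup_gc {g : (ι → F) ≃ₗ[F] (ι → F)} (hs : Sup g ({i1, i2, i3} : Finset ι)) :
    Sup (g * pm (cyc i1 i2 i3)) ({i1, i2, i3} : Finset ι) := sup_mul' hs (sup_cyc h12 h13 h23)

theorem mem_gc {g : (ι → F) ≃ₗ[F] (ι → F)} (D : Dat K) (hg : g ∈ K) : g * pm (cyc i1 i2 i3) ∈ K :=
  K.mul_mem hg (pm_cyc_mem h12 h13 h23 D)

/-- class in `PGL` -/
noncomputable def wb (D : Dat K) {g : (ι → F) ≃ₗ[F] (ι → F)} (hg : g ∈ K) (hs : Sup g ({i1, i2, i3} : Finset ι)) :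
    ProjGenLinGroup (Fin 2) F := ProjGenLinGroup.mk (wc hab h12 h13 h23 D hg hs)

theorem wc_gc {g : (ι → F) ≃ₗ[F] (ι → F)} (hg : g ∈ K) (hs : Sup g ({i1, i2, i3} : Finset ι)) :
    (wc hab h12 h13 h23 D (mem_gc hab h12 h13 h23 D hg) (sup_gc hab h12 h13 h23 hs) : Matrix (Fin 2) (Fin 2) F) =
      m α β i1 i2 i3 (g (e i2)) := by
  show m α β i1 i2 i3 (g ((pm (cyc i1 i2 i3) : (ι → F) ≃ₗ[F] (ι → F)) (e i1))) = _
  rw [(cyc_e h12 h13 h23).1]

theorem R1 {g : (ι → F) ≃ₗ[F] (ι → F)} (hg : g ∈ K) (hs : Sup g ({i1, i2, i3} : Finset ι)) :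
    ProjGenLinGroup.mk (tc hab h12 h13 h23 D h2 hg hs) * wb hab h12 h13 h23 D hg hs *
      (ProjGenLinGroup.mk (tc hab h12 h13 h23 D h2 hg hs))⁻¹ =
      wb hab h12 h13 h23 D (mem_gc hab h12 h13 h23 D hg) (sup_gc hab h12 h13 h23 hs) := by
  rw [mul_inv_eq_iff_eq_mul, wb, wb, ← map_mul, ← map_mul]
  congr 1
  apply Units.ext
  rw [Units.val_mul, Units.val_mul, wc_gc hab h12 h13 h23 D hg hs]
  have := tc_wc hab h12 h13 h23 D h2 hg hs (u := e i1) (VI_e (by simp))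
  rw [(cyc_e h12 h13 h23).1] at this
  exact this.symm

theorem R2 {g : (ι → F) ≃ₗ[F] (ι → F)} (hg : g ∈ K) (hs : Sup g ({i1, i2, i3} : Finset ι)) :
    wb hab h12 h13 h23 D hg hs * wb hab h12 h13 h23 D hg hs = 1 := by
  rw [wb, ← map_mul, ← map_one ProjGenLinGroup.mk]
  apply mk_eq_of (c := -1) (by norm_num)
  rw [Units.val_mul, Units.val_one]
  show m α β i1 i2 i3 (g (e i1)) * m α β i1 i2 i3 (g (e i1)) = _
  rw [m_sq hab h12 h13 h23 (VI_map D hg hs (VI_e (by simp))), D.iso g hg, dot_e]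
  simp [e]

theorem anti12 {g : (ι → F) ≃ₗ[F] (ι → F)} (hg : g ∈ K) (hs : Sup g ({i1, i2, i3} : Finset ι)) (D : Dat K) :
    m α β i1 i2 i3 (g (e i1)) * m α β i1 i2 i3 (g (e i2)) = - (m α β i1 i2 i3 (g (e i2)) * m α β i1 i2 i3 (g (e i1))) := by
  have h1 := m_anti hab h12 h13 h23 (v := g (e i2)) (w := g (e i1)) (VI_map D hg hs (VI_e (by simp)))
  rw [D.iso g hg, dot_e] at h1
  have h3 : (e i2 : ι → F) i1 = 0 := by simp [e, h12]
  rw [h3, mul_zero, zero_smul] at h1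
  exact eq_neg_of_add_eq_zero_left h1

theorem R4 {g : (ι → F) ≃ₗ[F] (ι → F)} (hg : g ∈ K) (hs : Sup g ({i1, i2, i3} : Finset ι)) :
    wb hab h12 h13 h23 D hg hs * wb hab h12 h13 h23 D (mem_gc hab h12 h13 h23 D hg) (sup_gc hab h12 h13 h23 hs) =
      wb hab h12 h13 h23 D (mem_gc hab h12 h13 h23 D hg) (sup_gc hab h12 h13 h23 hs) * wb hab h12 h13 h23 D hg hs := by
  rw [wb, wb, ← map_mul, ← map_mul]
  apply mk_eq_of (c := -1) (by norm_num)
  rw [Units.val_mul, Units.val_mul, wc_gc hab h12 h13 h23 D hg hs]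
  show m α β i1 i2 i3 (g (e i1)) * m α β i1 i2 i3 (g (e i2)) = (-1 : F) • (m α β i1 i2 i3 (g (e i2)) * m α β i1 i2 i3 (g (e i1)))
  rw [anti12 hab h12 h13 h23 hg hs D, neg_smul, one_smul]

include h2 in
theorem R5 {g : (ι → F) ≃ₗ[F] (ι → F)} (hg : g ∈ K) (hs : Sup g ({i1, i2, i3} : Finset ι)) :
    wb hab h12 h13 h23 D (mem_gc hab h12 h13 h23 D hg) (sup_gc hab h12 h13 h23 hs) ≠ wb hab h12 h13 h23 D hg hs := by
  intro h
  obtain ⟨c, hc, h1⟩ := mk_eq_imp h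
  rw [wc_gc hab h12 h13 h23 D hg hs] at h1
  have h3 : m α β i1 i2 i3 (g (e i1)) = c • m α β i1 i2 i3 (g (e i2)) := h1
  have h4 := anti12 hab h12 h13 h23 hg hs D
  have h5 := m_sq hab h12 h13 h23 (VI_map D hg hs (VI_e (i1 := i1) (i2 := i2) (i3 := i3) (k := i2) (by simp)))
  rw [D.iso g hg, dot_e] at h5
  have h6 : (e i2 : ι → F) i2 = 1 := by simp [e]
  rw [h3, smul_mul_assoc, mul_smul_comm, h5, h6] at h4
  have h7 := congrFun (congrFun h4 0) 0
  simp at h7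
  have h8 : 2 * c = 0 := by linear_combination -h7
  exact (mul_ne_zero h2 hc) h8

theorem m3_eq : m α β i1 i2 i3 (e i3 : ι → F) = m α β i1 i2 i3 (e i1) * m α β i1 i2 i3 (e i2) := by
  simp only [m, e, Pi.single_apply, h12, h13, h23, h12.symm, h13.symm, h23.symm, if_true, if_false]
  rw [mt, mt, mt]
  ext i j
  fin_cases i <;> fin_cases j <;> simp [Matrix.mul_apply, Fin.sum_univ_two]

theorem my_eq : m α β i1 i2 i3 (e i1 - e i2 : ι → F) * m α β i1 i2 i3 (e i1) * (m α β i1 i2 i3 (e i1 - e i2) * m α β i1 i2 i3 (e i1)) =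
    (-2 : F) • (m α β i1 i2 i3 (e i1) * m α β i1 i2 i3 (e i2)) := by
  simp only [m, e, Pi.sub_apply, Pi.single_apply, h12, h13, h23, h12.symm, h13.symm, h23.symm, if_true, if_false]
  rw [mt, mt, mt]
  ext i j
  fin_cases i <;> fin_cases j <;> simp [Matrix.mul_apply, Fin.sum_univ_two]
  · linear_combination hab
  · ring
  · ring
  · linear_combination hab

/-- in the `Sym(4)` case every element is monomial -/
theorem mono_one (S : Subgroup (ProjGenLinGroup (Fin 2) F)) (hS : (HH D α β i1 i2 i3).map ProjGenLinGroup.mk ≤ S)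
    (f : S ≃* Equiv.Perm (Fin 4)) {g : (ι → F) ≃ₗ[F] (ι → F)} (hg : g ∈ K)
    (hs : Sup g ({i1, i2, i3} : Finset ι)) (h2 : (2 : F) ≠ 0) : ∃ j, g (e i1) = e j ∨ g (e i1) = - e j := by
  have hwS : ∀ {g : (ι → F) ≃ₗ[F] (ι → F)} (hg : g ∈ K) (hs : Sup g ({i1, i2, i3} : Finset ι)),
      wb hab h12 h13 h23 D hg hs ∈ S := fun hg hs => hS ⟨_, wc_mem hab h12 h13 h23 D hg hs, rfl⟩
  have htS : ∀ {g : (ι → F) ≃ₗ[F] (ι → F)} (hg : g ∈ K) (hs : Sup g ({i1, i2, i3} : Finset ι)),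
      ProjGenLinGroup.mk (tc hab h12 h13 h23 D h2 hg hs) ∈ S := fun hg hs => hS ⟨_, tc_mem hab h12 h13 h23 D h2 hg hs, rfl⟩
  have hsq : ∀ {g : (ι → F) ≃ₗ[F] (ι → F)} (hg : g ∈ K) (hs : Sup g ({i1, i2, i3} : Finset ι)),
      f ⟨_, hwS hg hs⟩ * f ⟨_, hwS hg hs⟩ = 1 := by
    intro g hg hs
    rw [← map_mul, ← map_one f]
    congr 1
    exact Subtype.ext (R2 hab h12 h13 h23 D hg hs)
  have hsgn : ∀ {g : (ι → F) ≃ₗ[F] (ι → F)} (hg : g ∈ K) (hs : Sup g ({i1, i2, i3} : Finset ι)),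
      Equiv.Perm.sign (f ⟨_, hwS hg hs⟩) = 1 := by
    intro g hg hs
    have hconj : f ⟨_, htS hg hs⟩ * f ⟨_, hwS hg hs⟩ * (f ⟨_, htS hg hs⟩)⁻¹ =
        f ⟨_, hwS (mem_gc hab h12 h13 h23 D hg) (sup_gc hab h12 h13 h23 hs)⟩ := by
      rw [← map_inv, ← map_mul, ← map_mul]
      congr 1
      exact Subtype.ext (R1 hab h12 h13 h23 D h2 hg hs)
    apply s4_dec1 (f ⟨_, htS hg hs⟩) _ _ (hsq hg hs)
    · rw [hconj, ← map_mul, ← map_mul]
      congr 1
      exact Subtype.ext (R4 hab h12 h13 h23 D hg hs)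
    · rw [hconj]
      intro h
      exact R5 hab h12 h13 h23 D h2 hg hs (congrArg Subtype.val (f.injective h))
    · rw [← map_pow, ← map_one f]
      congr 1
      exact Subtype.ext (tc_cube hab h12 h13 h23 D h2 hg hs)
  have hcomm : ∀ {g' : (ι → F) ≃ₗ[F] (ι → F)} (hg' : g' ∈ K) (hs' : Sup g' ({i1, i2, i3} : Finset ι)),
      ∃ c : F, m α β i1 i2 i3 (g' (e i1)) * m α β i1 i2 i3 (g (e i1)) =
        c • (m α β i1 i2 i3 (g (e i1)) * m α β i1 i2 i3 (g' (e i1))) := by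
    intro g' hg' hs'
    have h1 := s4_dec2 _ _ (hsgn hg hs) (hsq hg hs) (hsgn hg' hs') (hsq hg' hs')
    rw [← map_mul, ← map_mul] at h1
    have h3 := congrArg Subtype.val (f.injective h1)
    have h4 : ProjGenLinGroup.mk (wc hab h12 h13 h23 D hg hs * wc hab h12 h13 h23 D hg' hs') =
        ProjGenLinGroup.mk (wc hab h12 h13 h23 D hg' hs' * wc hab h12 h13 h23 D hg hs) := by
      rw [map_mul, map_mul]; exact h3
    obtain ⟨c, _, h5⟩ := mk_eq_imp h4
    rw [Units.val_mul, Units.val_mul] at h5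
    exact ⟨c, h5⟩
  set v := g (e i1) with hv
  have hvV : VI i1 i2 i3 v := VI_map D hg hs (VI_e (by simp))
  have hvv : v ⬝ᵥ v = 1 := by rw [hv, D.iso g hg, dot_e]; simp [e]
  have hsmul : ∀ (d : F) (k : ι), v = d • e k → ∃ j, v = e j ∨ v = - e j := by
    intro d k hd
    rw [hd, smul_dotProduct, dotProduct_smul, dot_e] at hvv
    have h3 : (e k : ι → F) k = 1 := by simp [e]
    rw [h3, smul_eq_mul, smul_eq_mul, mul_one] at hvv
    have h4 : (d - 1) * (d + 1) = 0 := by linear_combination hvv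
    refine ⟨k, ?_⟩
    rcases mul_eq_zero.1 h4 with h5 | h5
    · left; rw [hd, sub_eq_zero.1 h5, one_smul]
    · right; rw [hd, eq_neg_of_add_eq_zero_left h5, neg_smul, one_smul]
  have hs1 : Sup (1 : (ι → F) ≃ₗ[F] (ι → F)) ({i1, i2, i3} : Finset ι) := fun j _ => rfl
  obtain ⟨c1, hc1⟩ := hcomm K.one_mem hs1
  have hc1' : m α β i1 i2 i3 (e i1) * m α β i1 i2 i3 v = c1 • (m α β i1 i2 i3 v * m α β i1 i2 i3 (e i1)) := hc1
  have hn : ∀ k : ι, (e k : ι → F) ⬝ᵥ e k = 1 := by intro k; rw [dot_e]; simp [e]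
  rcases comm_dec hab h12 h13 h23 h2 hvV (VI_e (by simp)) (hn i1) hc1' with h3 | ⟨d, h3⟩
  · obtain ⟨c2, hc2⟩ := hcomm (pm_cyc_mem h12 h13 h23 D) (sup_cyc h12 h13 h23)
    rw [(cyc_e h12 h13 h23).1] at hc2
    rcases comm_dec hab h12 h13 h23 h2 hvV (VI_e (by simp)) (hn i2) hc2 with h4 | ⟨d, h4⟩
    · apply hsmul (v i3) i3
      rw [dot_e] at h3 h4
      funext k
      rw [Pi.smul_apply, e, Pi.single_apply, smul_eq_mul]
      by_cases k3 : k = i3
      · subst k3; simp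
      · rw [if_neg k3, mul_zero]
        by_cases k1 : k = i1
        · subst k1; exact h3
        · by_cases k2 : k = i2
          · subst k2; exact h4
          · exact hvV k (by simp [k1, k2, k3])
    · exact hsmul d i2 h4
  · exact hsmul d i1 h3

end main

theorem tr_of [Fintype F] (hp : (Fintype.card F).Prime) (h2 : (2 : F) ≠ 0) (hN : 5 ≤ Fintype.card ι) (D : Dat K)
    {g : (ι → F) ≃ₗ[F] (ι → F)} (hg : g ∈ K) {I : Finset ι} (hI : I.card = 3) (hs : Sup g I) (hn : ¬ Mon g) : TR K := by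
  classical
  have hI0 := hI
  obtain ⟨i1, i2, i3, h12, h13, h23, rfl⟩ := Finset.card_eq_three.1 hI
  obtain ⟨α, β, hab'⟩ := H64.P11M.norm_solve h2 (D := (-1 : F)) (by norm_num) (-1)
  have hab : α * α + β * β = -1 := by linear_combination hab'
  -- two further coordinates
  have hcompl : 1 < (Finset.univ \ ({i1, i2, i3} : Finset ι)).card := by
    rw [Finset.card_sdiff_of_subset (Finset.subset_univ _), hI, Finset.card_univ]; omega
  obtain ⟨l, hl, l', hl', hll⟩ := Finset.one_lt_card.1 hcompl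
  rw [Finset.mem_sdiff] at hl hl'
  have hs1 : Sup (1 : (ι → F) ≃ₗ[F] (ι → F)) ({i1, i2, i3} : Finset ι) := fun j _ => rfl
  have nyy : ((e i1 : ι → F) - e i2) ⬝ᵥ (e i1 - e i2) = 2 := by
    rw [dotProduct_sub, dot_e, dot_e]; simp [e, h12, h12.symm]; norm_num
  have hyV : VI i1 i2 i3 ((e i1 : ι → F) - e i2) := (VI_e (by simp)).sub (VI_e (by simp))
  have hYdet : (m α β i1 i2 i3 ((e i1 : ι → F) - e i2)).det ≠ 0 := by
    rw [m_det hab h12 h13 h23 hyV, nyy]; exact h2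
  set Y : GL (Fin 2) F := gl _ hYdet with hY
  have hYv : (Y : Matrix (Fin 2) (Fin 2) F) = m α β i1 i2 i3 (e i1 - e i2) := rfl
  set Hb := (HH D α β i1 i2 i3).map ProjGenLinGroup.mk with hHb
  set yb := ProjGenLinGroup.mk Y with hyb
  have hyy : yb * yb = 1 := by
    rw [hyb, ← map_mul, ← map_one ProjGenLinGroup.mk]
    apply mk_eq_of (c := -2) (neg_ne_zero.2 h2)
    rw [Units.val_mul, Units.val_one, hYv, m_sq hab h12 h13 h23 hyV, nyy]
  have hyinv : yb⁻¹ = yb := (eq_inv_of_mul_eq_one_left hyy).symm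
  have hconj : ∀ h ∈ Hb, yb * h * yb⁻¹ ∈ Hb := by
    rintro _ ⟨X, hX, rfl⟩
    refine ⟨Y * X * Y⁻¹, conj_norm hab h12 h13 h23 D h2 hl.2 hl'.2 hll Y hYv hX, ?_⟩
    rw [map_mul, map_mul, map_inv]
  have hyN : yb ∈ normalizer (Hb : Set (ProjGenLinGroup (Fin 2) F)) := by
    rw [mem_normalizer_iff]
    intro h
    constructor
    · exact hconj h
    · intro h3
      have h4 := hconj _ h3
      have h5 : yb * (yb * h * yb⁻¹) * yb⁻¹ = h := by
        rw [hyinv]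
        calc yb * (yb * h * yb) * yb = (yb * yb) * h * (yb * yb) := by group
          _ = h := by rw [hyy]; group
      rwa [h5] at h4
  set S := Hb ⊔ zpowers yb with hS
  have hHS : Hb ≤ S := le_sup_left
  have hyS : yb ∈ S := (le_sup_right : zpowers yb ≤ S) (mem_zpowers yb)
  have hsq : ∀ x ∈ S, x * x ∈ Hb := by
    intro x hx
    have h1 : (↑(Hb ⊔ zpowers yb) : Set (ProjGenLinGroup (Fin 2) F)) = (Hb : Set _) * (zpowers yb : Set _) :=
      coe_mul_of_right_le_normalizer_left Hb (zpowers yb) (by rw [zpowers_le]; exact hyN)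
    have h3 : x ∈ (Hb : Set (ProjGenLinGroup (Fin 2) F)) * (zpowers yb : Set _) := by rw [← h1]; exact hx
    obtain ⟨h, hh, k, hk, rfl⟩ := h3
    have hkk : k * k = 1 := by
      obtain ⟨n, rfl⟩ := hk
      show yb ^ n * yb ^ n = 1
      rw [← _root_.zpow_add, ← two_mul, _root_.zpow_mul, zpow_ofNat, pow_two, hyy, _root_.one_zpow]
    have hkN : k ∈ normalizer (Hb : Set (ProjGenLinGroup (Fin 2) F)) := by
      have : zpowers yb ≤ normalizer (Hb : Set (ProjGenLinGroup (Fin 2) F)) := by rw [zpowers_le]; exact hyN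
      exact this hk
    have h4 : h * k * (h * k) = h * (k * h * k⁻¹) * (k * k) := by group
    show h * k * (h * k) ∈ Hb
    rw [h4, hkk, mul_one]
    exact Hb.mul_mem hh ((mem_normalizer_iff.1 hkN h).1 hh)
  set a := wb hab h12 h13 h23 D K.one_mem hs1 with ha
  set b := wb hab h12 h13 h23 D (mem_gc hab h12 h13 h23 D K.one_mem) (sup_gc hab h12 h13 h23 hs1) with hb
  set t := ProjGenLinGroup.mk (tc hab h12 h13 h23 D h2 K.one_mem hs1) with ht
  have haS : a ∈ S := hHS ⟨_, wc_mem hab h12 h13 h23 D K.one_mem hs1, rfl⟩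
  have hbS : b ∈ S := hHS ⟨_, wc_mem hab h12 h13 h23 D (mem_gc hab h12 h13 h23 D K.one_mem) (sup_gc hab h12 h13 h23 hs1), rfl⟩
  have htS : t ∈ S := hHS ⟨_, tc_mem hab h12 h13 h23 D h2 K.one_mem hs1, rfl⟩
  have a2 : a * a = 1 := R2 hab h12 h13 h23 D K.one_mem hs1
  have b2 : b * b = 1 := R2 hab h12 h13 h23 D _ _
  have hne : a ≠ b := fun h => R5 hab h12 h13 h23 D h2 K.one_mem hs1 h.symm
  have cab : a * b = b * a := R4 hab h12 h13 h23 D K.one_mem hs1
  have ta : t * a * t⁻¹ = b := R1 hab h12 h13 h23 D h2 K.one_mem hs1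
  have t3 : t ^ 3 = 1 := tc_cube hab h12 h13 h23 D h2 K.one_mem hs1
  have b1 : b ≠ 1 := by
    intro h
    apply hne
    rw [h] at ta ⊢
    calc a = t⁻¹ * (t * a * t⁻¹) * t := by group
      _ = 1 := by rw [ta]; group
  have habm : a * b = ProjGenLinGroup.mk (wc hab h12 h13 h23 D K.one_mem hs1 *
      wc hab h12 h13 h23 D (mem_gc hab h12 h13 h23 D K.one_mem) (sup_gc hab h12 h13 h23 hs1)) := by
    rw [map_mul]; rfl
  have tb : t * b * t⁻¹ = a * b := by
    rw [mul_inv_eq_iff_eq_mul, habm, ht, hb, wb, ← map_mul, ← map_mul]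
    congr 1
    apply Units.ext
    rw [Units.val_mul, Units.val_mul, Units.val_mul, wc_gc hab h12 h13 h23 D K.one_mem hs1]
    have h3 := tc_wc hab h12 h13 h23 D h2 K.one_mem hs1 (u := e i2) (VI_e (by simp))
    rw [(cyc_e h12 h13 h23).2] at h3
    have h4 : m α β i1 i2 i3 ((1 : (ι → F) ≃ₗ[F] (ι → F)) (e i3)) = m α β i1 i2 i3 ((1 : (ι → F) ≃ₗ[F] (ι → F)) (e i1)) *
        m α β i1 i2 i3 ((1 : (ι → F) ≃ₗ[F] (ι → F)) (e i2)) := m3_eq hab h12 h13 h23
    rw [h4] at h3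
    exact h3.symm
  have hya : (yb * a) * (yb * a) = a * b := by
    rw [habm, hyb, ha, wb, ← map_mul, ← map_mul]
    apply mk_eq_of (c := -2) (neg_ne_zero.2 h2)
    rw [Units.val_mul, Units.val_mul, Units.val_mul, wc_gc hab h12 h13 h23 D K.one_mem hs1, hYv]
    exact my_eq hab h12 h13 h23
  have y2 : (yb * a) ^ 2 ≠ 1 := by
    rw [pow_two, hya]
    intro h
    apply hne
    calc a = a * b * b := by rw [mul_assoc, b2, mul_one]
      _ = b := by rw [h, one_mul]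
  have y4 : (yb * a) ^ 4 = 1 := by
    have : (yb * a) ^ 4 = (yb * a) * (yb * a) * ((yb * a) * (yb * a)) := by
      rw [pow_succ, pow_succ, pow_two]; simp only [mul_assoc]
    rw [this, hya]
    calc a * b * (a * b) = a * b * (b * a) := by rw [← cab]
      _ = a * (b * b) * a := by simp only [mul_assoc]
      _ = 1 := by rw [b2, mul_one, a2]
  rcases dick hp h2 S a b t yb haS hbS htS hyS a2 b2 b1 hne cab ta tb t3 y4 y2 with ⟨⟨f⟩⟩ | hall
  · exfalso
    apply hn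
    intro i
    by_cases hi : i ∈ ({i1, i2, i3} : Finset ι)
    · simp only [Finset.mem_insert, Finset.mem_singleton] at hi
      rcases hi with rfl | rfl | rfl
      · exact mono_one hab h12 h13 h23 D S hHS f hg hs h2
      · have h3 := mono_one hab h12 h13 h23 D S hHS f (mem_gc hab h12 h13 h23 D hg) (sup_gc hab h12 h13 h23 hs) h2
        have h4 : (g * pm (cyc i1 i i3) : (ι → F) ≃ₗ[F] (ι → F)) (e i1) = g (e i) := by
          show g ((pm (cyc i1 i i3) : (ι → F) ≃ₗ[F] (ι → F)) (e i1)) = _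
          rw [(cyc_e h12 h13 h23).1]
        rwa [h4] at h3
      · have h3 := mono_one hab h12 h13 h23 D S hHS f (mem_gc hab h12 h13 h23 D (mem_gc hab h12 h13 h23 D hg))
          (sup_gc hab h12 h13 h23 (sup_gc hab h12 h13 h23 hs)) h2
        have h4 : (g * pm (cyc i1 i2 i) * pm (cyc i1 i2 i) : (ι → F) ≃ₗ[F] (ι → F)) (e i1) = g (e i) := by
          show g ((pm (cyc i1 i2 i) : (ι → F) ≃ₗ[F] (ι → F)) ((pm (cyc i1 i2 i) : (ι → F) ≃ₗ[F] (ι → F)) (e i1))) = _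
          rw [(cyc_e h12 h13 h23).1, (cyc_e h12 h13 h23).2]
        rwa [h4] at h3
    · exact ⟨i, Or.inl (hs i hi)⟩
  · have hSL : ∀ x : GL (Fin 2) F, (x : Matrix (Fin 2) (Fin 2) F).det = 1 → ProjGenLinGroup.mk x ∈ S := by
      intro x hx
      obtain ⟨x', hx'⟩ : ∃ x' : SpecialLinearGroup (Fin 2) F, (x' : Matrix (Fin 2) (Fin 2) F) = x := ⟨⟨x, hx⟩, rfl⟩
      have h3 := hall (x' : ProjectiveSpecialLinearGroup (Fin 2) F)
      have h4 : ProjectiveSpecialLinearGroup.toPGL (x' : ProjectiveSpecialLinearGroup (Fin 2) F) =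
          ProjGenLinGroup.mk (SpecialLinearGroup.toGL x') := ProjectiveSpecialLinearGroup.toPGL_mk _
      have h5 : SpecialLinearGroup.toGL x' = x := Units.ext hx'
      rw [h5] at h4
      rw [← h4]
      exact h3
    have hN' := H64.P11M.sl_sq h2 S Hb hSL hsq
    apply H25.FrTr.tr_all D h2 hN hI0
    intro y y' hy hy' hnn hn0
    have hyV' : VI i1 i2 i3 y := hy
    have hyV'' : VI i1 i2 i3 y' := hy'
    obtain ⟨x, hx⟩ := H25.FrTr.sl2_conj h2 (m α β i1 i2 i3 y) (m α β i1 i2 i3 y') (mt_trace _ _ _ _ _)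
      (mt_trace _ _ _ _ _) (by rw [m_det hab h12 h13 h23 hyV', m_det hab h12 h13 h23 hyV'', hnn])
      (by rw [m_det hab h12 h13 h23 hyV']; exact hn0)
    obtain ⟨X, ⟨k, hk, hks, hkr⟩, hX⟩ := hN' (SpecialLinearGroup.toGL x) x.2
    obtain ⟨c, hc, hXc⟩ := mk_eq_imp hX
    have hXc' : (x : Matrix (Fin 2) (Fin 2) F) = c • (X : Matrix (Fin 2) (Fin 2) F) := hXc
    refine ⟨k, hk, hks, ?_⟩
    have h3 := hkr y hyV'
    have h4 : m α β i1 i2 i3 (k y) * (x : Matrix (Fin 2) (Fin 2) F) = m α β i1 i2 i3 y' * (x : Matrix (Fin 2) (Fin 2) F) := by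
      rw [← hx, hXc', mul_smul_comm, h3, smul_mul_assoc]
    have h5 : m α β i1 i2 i3 (k y) = m α β i1 i2 i3 y' := by
      have h6 := congrArg (fun M => M * ((x⁻¹ : SpecialLinearGroup (Fin 2) F) : Matrix (Fin 2) (Fin 2) F)) h4
      have hxx : (x : Matrix (Fin 2) (Fin 2) F) * ((x⁻¹ : SpecialLinearGroup (Fin 2) F) : Matrix (Fin 2) (Fin 2) F) = 1 :=
        congrArg Subtype.val (mul_inv_cancel x)
      simp only [mul_assoc, hxx, mul_one] at h6
      exact h6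
    obtain ⟨e1, e2, e3⟩ := mt_inj h2 hab h5
    funext j
    by_cases hj : j ∈ ({i1, i2, i3} : Finset ι)
    · simp only [Finset.mem_insert, Finset.mem_singleton] at hj
      rcases hj with rfl | rfl | rfl
      · exact e1
      · exact e2
      · exact e3
    · rw [VI_map D hk hks hyV' j hj, hy' j hj]

end H79.FrP11
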