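import Cfsg.Agent.Lib.H79.OrFin

/-! Sylow 2-subgroups of `Ω`, the three families. -/

set_option autoImplicit false
set_option linter.unusedSectionVars false
set_option linter.style.haveILetI false

namespace H79.OrEnd

open Subgroup H79.SylElem H79.OrWr H79.OrMain H79.OrIso H79.OrFin QuadraticMap H17.OrthAbs
  H17.OrthTheta H17.OrthOmega H48.QuadStd H48.QuadSplit

variable {F : Type*} [Field F] [Fintype F]

theorem two_hyp (h2 : (2 : F) ≠ 0) : ((hyp F).prod (hyp F)).Equivalent ((q2 F).prod (q2 F)) := by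
  have hfin2 : 2 ≤ Module.finrank F (F × F) := by
    rw [Module.finrank_prod, Module.finrank_self]
  obtain ⟨v, hv⟩ := exists_eq (nd_q2 (F := F) h2) hfin2 (neg_ne_zero.2 one_ne_zero)
  rw [q2_apply] at hv
  exact neg_equiv hv ((hyp_equiv h2).prod (hyp_equiv h2))

theorem one_hyp (h2 : (2 : F) ≠ 0) (h : Fintype.card F % 4 = 1) : (hyp F).Equivalent (q2 F) := by
  have hs : IsSquare (-1 : F) := FiniteField.isSquare_neg_one_iff.2 (by omega)
  obtain ⟨i, hi⟩ := hs
  exact hyp_equiv_sq h2 hi.symm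

/-- even number of hyperbolic planes, or `q ≡ 1 (mod 4)` -/
theorem plus_equiv (h2 : (2 : F) ≠ 0) {W : Type*} [AddCommGroup W] [Module F W]
    (QW : QuadraticForm F W) (m : ℕ) (h : Fintype.card F % 4 = 1 ∨ Even m) :
    ((qPlus m F).prod QW).Equivalent (QQ (q2 F) QW m) := by
  rcases h with h | ⟨j, hj⟩
  · exact plus_one (one_hyp h2 h) QW m
  · have : m = 2 * j := by omega
    rw [this]
    exact plus_two (two_hyp h2) QW j

theorem val_two_mul {a b : ℕ} (ha : a ≠ 0) (hb : b ≠ 0) (hodd : padicValNat 2 a = 0) :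
    padicValNat 2 (2 * a * b) = 1 + padicValNat 2 b := by
  haveI : Fact (Nat.Prime 2) := ⟨Nat.prime_two⟩
  rw [padicValNat.mul (mul_ne_zero (by norm_num) ha) hb, padicValNat.mul (by norm_num) ha, hodd, padicValNat_self]

theorem odd_case (hF : Odd (Fintype.card F)) (m : ℕ) (hm : 2 ≤ m) (P : Sylow 2 (Cfsg.Omega F ⇑(qOdd m F 1))) :
    ∀ x : (P : Subgroup (Cfsg.Omega F ⇑(qOdd m F 1))),
      x ^ 2 ∈ commutator (P : Subgroup (Cfsg.Omega F ⇑(qOdd m F 1))) := by
  haveI : Fact (Nat.Prime 2) := ⟨Nat.prime_two⟩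
  have hq1 : 1 < Fintype.card F := Fintype.one_lt_card
  have h2 : (2 : F) ≠ 0 := H48.FinFieldSq.two_ne_zero_iff_odd_card.2 (by rw [Nat.card_eq_fintype_card]; exact hF)
  have hmod : Fintype.card F % 4 = 1 ∨ Fintype.card F % 4 = 3 := by
    have := Nat.odd_iff.1 hF; omega
  have hcard : padicValNat 2 (Nat.card (O (qOdd m F 1))) =
      m * padicValNat 2 (Fintype.card F ^ 2 - 1) + padicValNat 2 m.factorial + 1 := by
    rw [card_O_eq, H7.HypOrd.card_O_odd m h2 one_ne_zero, Nat.card_eq_fintype_card,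
      val_two_mul (by positivity) (ValQ.prod_ne_zero hq1 m) (ValQ.val_pow_odd hF), ValQ.val_prod hF hq1]
    ring
  have hE : (qOdd m F 1).Equivalent ((qPlus m F).prod (qUn 1)) := (qOdd_equiv m 1).trans (prod_comm_equiv _ _)
  by_cases h : Fintype.card F % 4 = 1 ∨ Even m
  · exact final hF h2 (qOdd m F 1) (qUn 1) 1 m hm (good_one h2 one_ne_zero)
      (hE.trans (plus_equiv h2 _ m h)) hcard P
  · push Not at h
    obtain ⟨j, rfl⟩ := Nat.not_even_iff_odd.1 h.2
    have h5 : (qOdd (2 * j + 1) F 1).Equivalent (QQ (q2 F) (qUn (-1)) (2 * j + 1)) := by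
      refine hE.trans ((plus_succ _ _).trans ?_)
      refine (assoc_comm _ _ _).trans ?_
      refine ((Equivalent.refl _).prod (hyp_un h2)).trans ?_
      refine (assoc_comm _ _ _).trans ?_
      refine ((Equivalent.refl _).prod (plus_equiv h2 (qUn (-1 : F)) (2 * j) (Or.inr ⟨j, by ring⟩))).trans ?_
      exact (QQ_succ _ _ _).symm
    exact final hF h2 _ (qUn (-1)) 1 _ hm (good_one h2 (neg_ne_zero.2 one_ne_zero)) h5 hcard P

theorem plus_case (hF : Odd (Fintype.card F)) (m : ℕ) (hm : 2 ≤ m) (hm' : Even m ∨ 3 ≤ m)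
    (P : Sylow 2 (Cfsg.Omega F ⇑(qPlus m F))) :
    ∀ x : (P : Subgroup (Cfsg.Omega F ⇑(qPlus m F))),
      x ^ 2 ∈ commutator (P : Subgroup (Cfsg.Omega F ⇑(qPlus m F))) := by
  haveI : Fact (Nat.Prime 2) := ⟨Nat.prime_two⟩
  have hq1 : 1 < Fintype.card F := Fintype.one_lt_card
  have h2 : (2 : F) ≠ 0 := H48.FinFieldSq.two_ne_zero_iff_odd_card.2 (by rw [Nat.card_eq_fintype_card]; exact hF)
  have hmod : Fintype.card F % 4 = 1 ∨ Fintype.card F % 4 = 3 := by
    have := Nat.odd_iff.1 hF; omega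
  obtain ⟨n, rfl⟩ : ∃ n, m = n + 1 := ⟨m - 1, by omega⟩
  have hcard : padicValNat 2 (Nat.card (O (qPlus (n + 1) F))) =
      1 + (padicValNat 2 (Fintype.card F ^ (n + 1) - 1) +
        (n * padicValNat 2 (Fintype.card F ^ 2 - 1) + padicValNat 2 n.factorial)) := by
    rw [card_O_eq, H7.HypOrd.card_O_plus n, Nat.card_eq_fintype_card, mul_assoc,
      val_two_mul (by positivity) (mul_ne_zero (ValQ.pow_sub_ne hq1 (by omega)) (ValQ.prod_ne_zero hq1 n))
        (ValQ.val_pow_odd hF), padicValNat.mul (ValQ.pow_sub_ne hq1 (by omega)) (ValQ.prod_ne_zero hq1 n),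
      ValQ.val_prod hF hq1]
  have hfac : padicValNat 2 (n + 1).factorial = padicValNat 2 (n + 1) + padicValNat 2 n.factorial := by
    rw [Nat.factorial_succ, padicValNat.mul (by omega) (Nat.factorial_ne_zero n)]
  have hE : (qPlus (n + 1) F).Equivalent ((qPlus (n + 1) F).prod (Q0 F)) := (prod_triv _ _).symm
  have hevv : Even (n + 1) → padicValNat 2 (Fintype.card F ^ (n + 1) - 1) + 1 =
      padicValNat 2 (Fintype.card F ^ 2 - 1) + padicValNat 2 (n + 1) := by
    rintro ⟨j, hj⟩
    have e1 : n + 1 = 2 * j := by omega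
    rw [e1, ValQ.val_even hF hq1 (by omega), padicValNat.mul (by norm_num) (by omega), padicValNat_self]
    ring
  by_cases h : Fintype.card F % 4 = 1 ∨ Even (n + 1)
  · refine final hF h2 _ (Q0 F) 0 (n + 1) hm good_zero (hE.trans (plus_equiv h2 _ _ h)) ?_ P
    rw [hcard, hfac]
    by_cases he : Even (n + 1)
    · have := hevv he
      have e2 : (n + 1) * padicValNat 2 (Fintype.card F ^ 2 - 1) =
        n * padicValNat 2 (Fintype.card F ^ 2 - 1) + padicValNat 2 (Fintype.card F ^ 2 - 1) := by ring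
      rw [e2]
      omega
    · have h1 : Fintype.card F % 4 = 1 := by tauto
      have hodd := Nat.not_even_iff_odd.1 he
      have h3 : padicValNat 2 (n + 1) = 0 := padicValNat.eq_zero_of_not_dvd (by
        rw [← even_iff_two_dvd]; exact he)
      rw [ValQ.val_odd_sub hF hq1 hodd, h3, ValQ.val_sq hq1, ValQ.val_add_one h1]
      ring
  · push Not at h
    have h3q : Fintype.card F % 4 = 3 := by omega
    have hodd := Nat.not_even_iff_odd.1 h.2
    obtain ⟨j, hj⟩ := hodd
    have hn : n = 2 * j := by omega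
    have hev : ¬ Even (n + 1) := h.2
    have hn2 : 2 ≤ n := by
      rcases hm' with h4 | h4
      · exact absurd h4 hev
      · omega
    have h5 : (qPlus (n + 1) F).Equivalent (QQ (q2 F) (qBin 0 (-1) : QuadraticForm F (F × F)) n) := by
      refine hE.trans ((plus_succ _ _).trans ?_)
      refine ((Equivalent.refl _).prod (prod_triv _ _)).trans ?_
      refine (prod_comm_equiv _ _).trans ?_
      refine ((Equivalent.refl _).prod (hyp_equiv h2)).trans ?_
      exact plus_equiv h2 _ _ (Or.inr ⟨j, by omega⟩)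
    refine final hF h2 _ _ 2 n hn2 (good_two h2 (neg_ne_zero.2 one_ne_zero)) h5 ?_ P
    rw [hcard, ValQ.val_odd_sub hF hq1 ⟨j, hj⟩, ValQ.val_sub_one h3q]
    ring

theorem minus_case (hF : Odd (Fintype.card F)) (n : ℕ) (hn : 2 ≤ n) (a b : F)
    (hab : ∀ z₁ z₂ : F, z₁ ^ 2 + a * z₁ * z₂ + b * z₂ ^ 2 = 0 → z₁ = 0 ∧ z₂ = 0)
    (P : Sylow 2 (Cfsg.Omega F ⇑(qMinus n F a b))) :
    ∀ x : (P : Subgroup (Cfsg.Omega F ⇑(qMinus n F a b))),
      x ^ 2 ∈ commutator (P : Subgroup (Cfsg.Omega F ⇑(qMinus n F a b))) := by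
  haveI : Fact (Nat.Prime 2) := ⟨Nat.prime_two⟩
  have hq1 : 1 < Fintype.card F := Fintype.one_lt_card
  have h2 : (2 : F) ≠ 0 := H48.FinFieldSq.two_ne_zero_iff_odd_card.2 (by rw [Nat.card_eq_fintype_card]; exact hF)
  have h4 : (4 : F) ≠ 0 := by
    have : (4 : F) = 2 * 2 := by norm_num
    rw [this]; exact mul_ne_zero h2 h2
  have hmod : Fintype.card F % 4 = 1 ∨ Fintype.card F % 4 = 3 := by
    have := Nat.odd_iff.1 hF; omega
  have hcard : padicValNat 2 (Nat.card (O (qMinus n F a b))) =
      1 + (padicValNat 2 (Fintype.card F ^ (n + 1) + 1) +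
        (n * padicValNat 2 (Fintype.card F ^ 2 - 1) + padicValNat 2 n.factorial)) := by
    rw [card_O_eq, H7.MinusOrd.card_O_minus n hab, Nat.card_eq_fintype_card, mul_assoc,
      val_two_mul (by positivity) (mul_ne_zero (by omega) (ValQ.prod_ne_zero hq1 n))
        (ValQ.val_pow_odd hF), padicValNat.mul (by omega) (ValQ.prod_ne_zero hq1 n),
      ValQ.val_prod hF hq1]
  -- the binary form
  set c := b - a ^ 2 / 4 with hc
  have hani : ∀ x : F, c ≠ -(x * x) := by
    intro x hx
    have h5 := hab (x - a / 2) 1 (by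
      have : b = -(x * x) + a ^ 2 / 4 := by rw [← hx, hc]; ring
      rw [this]
      field_simp
      ring)
    exact one_ne_zero h5.2
  have hc0 : c ≠ 0 := by
    intro h0
    exact hani 0 (by rw [h0]; ring)
  have hE : (qMinus n F a b).Equivalent ((qPlus n F).prod (qBin 0 c : QuadraticForm F (F × F))) :=
    (qMinus_equiv n a b).trans ((Equivalent.refl _).prod (bin_equiv h2 a b))
  have hnotsq : ¬ IsSquare (-c) := by
    rintro ⟨x, hx⟩
    exact hani x (by rw [← hx]; ring)
  -- `v₂(q^(n+1) + 1) = 1` unless `q ≡ 3 (mod 4)`, `n` even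
  by_cases h : Fintype.card F % 4 = 1 ∨ ¬ Even n
  · have hval : padicValNat 2 (Fintype.card F ^ (n + 1) + 1) = 1 := by
      apply ValQ.val_add_one
      rcases h with h | h
      · rw [Nat.pow_mod, h, one_pow]
        norm_num
      · obtain ⟨j, hj⟩ := Nat.not_even_iff_odd.1 h
        have e1 : n + 1 = 2 * (j + 1) := by omega
        rw [e1, pow_mul, Nat.pow_mod, Nat.pow_mod (Fintype.card F) 2]
        rcases hmod with h | h
        · rw [h]; norm_num
        · rw [h]; norm_num
    rcases h with h | h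
    · refine final hF h2 _ _ 2 n hn (good_two h2 hc0) (hE.trans (plus_equiv h2 _ _ (Or.inl h))) ?_ P
      rw [hcard, hval]; ring
    · by_cases h1 : Fintype.card F % 4 = 1
      · refine final hF h2 _ _ 2 n hn (good_two h2 hc0) (hE.trans (plus_equiv h2 _ _ (Or.inl h1))) ?_ P
        rw [hcard, hval]; ring
      · have h3q : Fintype.card F % 4 = 3 := by omega
        obtain ⟨j, hj⟩ := Nat.not_even_iff_odd.1 h
        have hm1 : ¬ IsSquare (-1 : F) := fun h' => by
          have := FiniteField.isSquare_neg_one_iff.1 h'; omega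
        have hsq : IsSquare c := by
          have := H48.FinFieldSq.isSquare_mul_of_not hm1 hnotsq
          simpa using this
        obtain ⟨x, hx⟩ := hsq
        have hx0 : x ≠ 0 := by
          rintro rfl
          apply hc0; rw [hx, mul_zero]
        have h6 : (qBin 0 c : QuadraticForm F (F × F)).Equivalent (q2 F) := by
          rw [hx]; exact bin_sq_equiv hx0
        have h5 : (qMinus n F a b).Equivalent (QQ (q2 F) (qBin 0 (-1) : QuadraticForm F (F × F)) n) := by
          refine hE.trans ?_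
          rw [hj]
          refine (plus_succ _ _).trans ?_
          refine ((Equivalent.refl _).prod ((Equivalent.refl _).prod h6)).trans ?_
          refine (assoc_comm _ _ _).trans ?_
          refine ((Equivalent.refl _).prod (prod_comm_equiv _ _)).trans ?_
          refine (assoc_comm _ _ _).trans ?_
          refine ((Equivalent.refl _).prod ((Equivalent.refl _).prod (hyp_equiv h2))).trans ?_
          refine ((Equivalent.refl _).prod (plus_equiv h2 _ (2 * j) (Or.inr ⟨j, by ring⟩))).trans ?_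
          exact (QQ_succ _ _ _).symm
        refine final hF h2 _ _ 2 n hn (good_two h2 (neg_ne_zero.2 one_ne_zero)) h5 ?_ P
        rw [hcard, hval]; ring
  · push Not at h
    have h3q : Fintype.card F % 4 = 3 := by omega
    have hev : Even n := h.2
    have hm1 : ¬ IsSquare (-1 : F) := fun h' => by
      have := FiniteField.isSquare_neg_one_iff.1 h'; omega
    have hsq : IsSquare c := by
      have := H48.FinFieldSq.isSquare_mul_of_not hm1 hnotsq
      simpa using this
    obtain ⟨x, hx⟩ := hsq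
    have hx0 : x ≠ 0 := by
      rintro rfl
      apply hc0; rw [hx, mul_zero]
    have h6 : (qBin 0 c : QuadraticForm F (F × F)).Equivalent (q2 F) := by
      rw [hx]; exact bin_sq_equiv hx0
    have h5 : (qMinus n F a b).Equivalent (QQ (q2 F) (Q0 F) (n + 1)) := by
      refine hE.trans ?_
      refine ((Equivalent.refl _).prod (h6.trans (prod_triv _ (Q0 F)).symm)).trans ?_
      refine (assoc_comm _ _ _).trans ?_
      refine ((Equivalent.refl _).prod (plus_equiv h2 (Q0 F) n (Or.inr hev))).trans ?_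
      exact (QQ_succ _ _ _).symm
    refine final hF h2 _ _ 0 (n + 1) (by omega) good_zero h5 ?_ P
    have hodd : Odd (n + 1) := hev.add_one
    have hz : padicValNat 2 (n + 1) = 0 := padicValNat.eq_zero_of_not_dvd (by
      rw [← even_iff_two_dvd]; exact Nat.not_even_iff_odd.2 hodd)
    rw [hcard, ValQ.val_odd_add hF hq1 hodd, Nat.factorial_succ,
      padicValNat.mul (by omega) (Nat.factorial_ne_zero n), hz, ValQ.val_sq hq1, ValQ.val_sub_one h3q]
    ring

end H79.OrEnd
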