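import Cfsg.Agent.Lib.H79.OrIso
import Cfsg.Agent.S0305

/-! Sylow 2-subgroups of `Ω`, final assembly. -/

set_option autoImplicit false
set_option linter.unusedSectionVars false
set_option linter.style.haveILetI false

namespace H79.OrFin

open Subgroup H79.SylElem H79.OrWr H79.OrMain H79.OrIso QuadraticMap H17.OrthAbs
  H17.OrthTheta H17.OrthOmega H48.QuadStd H48.QuadSplit

variable {F : Type*} [Field F] {V V' : Type*} [AddCommGroup V] [Module F V] [AddCommGroup V']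
  [Module F V']

theorem O_eq (Q : QuadraticForm F V) : H17.OrthAbs.O Q = H7.Hyp.O ⇑Q := rfl

theorem nonempty_O {Q : QuadraticForm F V} {Q' : QuadraticForm F V'} (h : Q.Equivalent Q') :
    Nonempty (O Q ≃* O Q') := H7.HypStd.nonempty_congrO h

/-- small forms with a 2-group generated by reflections -/
def Good {W : Type*} [AddCommGroup W] [Module F W] (QW : QuadraticForm F W) (c : ℕ) : Prop :=
  ND QW ∧ ∃ (C : Subgroup (O QW)) (Y : Set (O QW)), Y ⊆ C ∧ C ≤ closure Y ∧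
    (∀ y ∈ Y, ∃ (w : W) (hw : QW w ≠ 0), y = rf QW w hw) ∧ Nat.card C = 2 ^ c

theorem good_zero : Good (Q0 F) 0 := by
  refine ⟨nd_Q0, ⊤, ∅, Set.empty_subset _, ?_, fun y hy => absurd hy (Set.notMem_empty _), ?_⟩
  · intro x _
    have : x = 1 := Subtype.ext (LinearEquiv.ext fun v => Subsingleton.elim _ _)
    rw [this]
    exact one_mem _
  · rw [Subgroup.card_top, pow_zero, Nat.card_eq_one_iff_unique]
    exact ⟨⟨fun x y => Subtype.ext (LinearEquiv.ext fun v => Subsingleton.elim _ _)⟩, ⟨1⟩⟩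

theorem rf_ne_one (h2 : (2 : F) ≠ 0) (Q : QuadraticForm F V) (v : V) (hv : Q v ≠ 0) : rf Q v hv ≠ 1 := by
  intro h
  have h1 : (rf Q v hv : V ≃ₗ[F] V) v = v := by rw [h]; rfl
  have h3 : (rf Q v hv : V ≃ₗ[F] V) v = -v := refl_self Q v hv
  rw [h3] at h1
  have h4 : (2 : F) • v = 0 := by
    rw [two_smul]
    nth_rewrite 1 [← h1]
    rw [neg_add_cancel]
  rcases smul_eq_zero.1 h4 with h5 | h5
  · exact h2 h5
  · apply hv; rw [h5, QuadraticMap.map_zero]

theorem good_one (h2 : (2 : F) ≠ 0) {c : F} (hc : c ≠ 0) : Good (qUn c) 1 := by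
  haveI : Fact (Nat.Prime 2) := ⟨Nat.prime_two⟩
  have h1 : qUn c (1 : F) ≠ 0 := by rw [qUn_apply]; simpa using hc
  refine ⟨nd_qUn h2 hc, zpowers (rf (qUn c) 1 h1), {rf (qUn c) 1 h1}, ?_, ?_, ?_, ?_⟩
  · exact Set.singleton_subset_iff.2 (mem_zpowers _)
  · rw [zpowers_eq_closure]
  · intro y hy
    exact ⟨1, h1, Set.mem_singleton_iff.1 hy⟩
  · rw [Nat.card_zpowers, orderOf_eq_prime (by rw [pow_two, rf_sq]) (rf_ne_one h2 _ _ _), pow_one]

/-- diagonal sign changes -/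
def dg (b : F) : ℤˣ × ℤˣ →* O (qBin 0 b : QuadraticForm F (F × F)) where
  toFun x := ⟨(LinearEquiv.smulOfUnit (Units.map (Int.castRingHom F : ℤ →* F) x.1)).prodCongr
    (LinearEquiv.smulOfUnit (Units.map (Int.castRingHom F : ℤ →* F) x.2)), by
      intro v
      have e : ∀ u : ℤˣ, (((u : ℤˣ) : ℤ) : F) ^ 2 = 1 := by
        intro u
        rcases Int.units_eq_one_or u with rfl | rfl <;> simp
      show qBin 0 b ((((x.1 : ℤˣ) : ℤ) : F) * v.1, (((x.2 : ℤˣ) : ℤ) : F) * v.2) = qBin 0 b v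
      rw [qBin_apply, qBin_apply]
      simp only [mul_pow, e]
      ring⟩
  map_one' := by
    apply Subtype.ext
    apply LinearEquiv.ext
    intro v
    refine Prod.ext ?_ ?_
    · show (((1 : ℤˣ) : ℤ) : F) * v.1 = v.1
      simp
    · show (((1 : ℤˣ) : ℤ) : F) * v.2 = v.2
      simp
  map_mul' x y := by
    apply Subtype.ext
    apply LinearEquiv.ext
    intro v
    refine Prod.ext ?_ ?_
    · show (((x.1 * y.1 : ℤˣ) : ℤ) : F) * v.1 = (((x.1 : ℤˣ) : ℤ) : F) * ((((y.1 : ℤˣ) : ℤ) : F) * v.1)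
      push_cast; ring
    · show (((x.2 * y.2 : ℤˣ) : ℤ) : F) * v.2 = (((x.2 : ℤˣ) : ℤ) : F) * ((((y.2 : ℤˣ) : ℤ) : F) * v.2)
      push_cast; ring

theorem dg_apply (b : F) (x : ℤˣ × ℤˣ) (v : F × F) :
    (dg b x : (F × F) ≃ₗ[F] (F × F)) v = ((((x.1 : ℤˣ) : ℤ) : F) * v.1, (((x.2 : ℤˣ) : ℤ) : F) * v.2) := rfl

theorem dg_injective (h2 : (2 : F) ≠ 0) (b : F) : Function.Injective (dg b) := by
  rw [injective_iff_map_eq_one]
  intro x hx
  have h1 : (dg b x : (F × F) ≃ₗ[F] (F × F)) (1, 1) = (1, 1) := by rw [hx]; rfl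
  rw [dg_apply] at h1
  simp only [mul_one] at h1
  have key : ∀ u : ℤˣ, (((u : ℤˣ) : ℤ) : F) = 1 → u = 1 := by
    intro u hu
    rcases Int.units_eq_one_or u with rfl | rfl
    · rfl
    · exfalso
      apply h2
      simp only [Units.val_neg, Units.val_one, Int.cast_neg, Int.cast_one] at hu
      linear_combination -hu
  exact Prod.ext (key _ (Prod.mk.inj h1).1) (key _ (Prod.mk.inj h1).2)

theorem good_two (h2 : (2 : F) ≠ 0) {b : F} (hb : b ≠ 0) :
    Good (qBin 0 b : QuadraticForm F (F × F)) 2 := by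
  have h4 : (4 : F) ≠ 0 := by
    have : (4 : F) = 2 * 2 := by norm_num
    rw [this]; exact mul_ne_zero h2 h2
  have h1 : (qBin 0 b : QuadraticForm F (F × F)) (1, 0) ≠ 0 := by rw [qBin_apply]; simp
  have h1' : (qBin 0 b : QuadraticForm F (F × F)) (0, 1) ≠ 0 := by rw [qBin_apply]; simpa using hb
  have e1 : dg b (-1, 1) = rf (qBin 0 b : QuadraticForm F (F × F)) (1, 0) h1 := by
    apply Subtype.ext
    apply LinearEquiv.ext
    intro v
    show _ = H17.OrthAbs.refl (qBin 0 b : QuadraticForm F (F × F)) (1, 0) h1 v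
    rw [dg_apply, H17.OrthAbs.refl_apply, polar_qBin, qBin_apply]
    refine Prod.ext ?_ ?_
    · simp only [Prod.fst_sub, Prod.smul_fst, smul_eq_mul, Units.val_neg, Units.val_one, Int.cast_neg,
        Int.cast_one]
      ring
    · simp only [Prod.snd_sub, Prod.smul_snd, smul_eq_mul, Units.val_one, Int.cast_one]
      ring
  have e2 : dg b (1, -1) = rf (qBin 0 b : QuadraticForm F (F × F)) (0, 1) h1' := by
    apply Subtype.ext
    apply LinearEquiv.ext
    intro v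
    show _ = H17.OrthAbs.refl (qBin 0 b : QuadraticForm F (F × F)) (0, 1) h1' v
    rw [dg_apply, H17.OrthAbs.refl_apply, polar_qBin, qBin_apply]
    refine Prod.ext ?_ ?_
    · simp only [Prod.fst_sub, Prod.smul_fst, smul_eq_mul, Units.val_one, Int.cast_one]
      ring
    · simp only [Prod.snd_sub, Prod.smul_snd, smul_eq_mul, Units.val_neg, Units.val_one, Int.cast_neg,
        Int.cast_one]
      have hb' : b * b⁻¹ = 1 := mul_inv_cancel₀ hb
      ring_nf
      linear_combination (2 * v.2) * hb'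
  refine ⟨nd_qBin (by
    rw [zero_pow (by norm_num), sub_zero]; exact mul_ne_zero h4 hb), (dg b).range,
    {dg b (-1, 1), dg b (1, -1)}, ?_, ?_, ?_, ?_⟩
  · rintro y (rfl | rfl)
    · exact ⟨_, rfl⟩
    · exact ⟨_, rfl⟩
  · have m1 : dg b (-1, 1) ∈ closure ({dg b (-1, 1), dg b (1, -1)} : Set (O (qBin 0 b : QuadraticForm F (F × F)))) :=
      subset_closure (Or.inl rfl)
    have m2 : dg b (1, -1) ∈ closure ({dg b (-1, 1), dg b (1, -1)} : Set (O (qBin 0 b : QuadraticForm F (F × F)))) :=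
      subset_closure (Or.inr rfl)
    rintro _ ⟨⟨x, y⟩, rfl⟩
    rcases Int.units_eq_one_or x with rfl | rfl <;> rcases Int.units_eq_one_or y with rfl | rfl
    · rw [show ((1, 1) : ℤˣ × ℤˣ) = 1 from rfl, map_one]; exact one_mem _
    · exact m2
    · exact m1
    · have h3 : ((-1, -1) : ℤˣ × ℤˣ) = (-1, 1) * (1, -1) := by decide
      rw [h3, map_mul]
      exact mul_mem m1 m2
  · rintro y (rfl | rfl)
    · exact ⟨_, h1, e1⟩
    · exact ⟨_, h1', e2⟩
  · rw [← Nat.card_congr (MonoidHom.ofInjective (dg_injective h2 b)).toEquiv, Nat.card_eq_fintype_card]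
    decide

section finite

variable [Fintype F]

theorem exists_dih (hF : Odd (Fintype.card F)) (h2 : (2 : F) ≠ 0) : ∃ N : ℕ, N ≠ 0 ∧
    Nonempty (O (q2 F) ≃* DihedralGroup N) ∧
    padicValNat 2 (Nat.card (O (q2 F))) = padicValNat 2 (Fintype.card F ^ 2 - 1) := by
  haveI : Fact (Nat.Prime 2) := ⟨Nat.prime_two⟩
  have hq1 : 1 < Fintype.card F := Fintype.one_lt_card
  have hmod : Fintype.card F % 4 = 1 ∨ Fintype.card F % 4 = 3 := by
    have := Nat.odd_iff.1 hF; omega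
  have hcard : ∀ N : ℕ, N ≠ 0 → Nonempty (O (q2 F) ≃* DihedralGroup N) →
      padicValNat 2 (Nat.card (O (q2 F))) = 1 + padicValNat 2 N := by
    rintro N hN ⟨e⟩
    rw [Nat.card_congr e.toEquiv, DihedralGroup.nat_card, padicValNat.mul (by norm_num) hN, padicValNat_self]
  rcases hmod with h | h
  · have hs : IsSquare (-1 : F) := FiniteField.isSquare_neg_one_iff.2 (by omega)
    obtain ⟨i, hi⟩ := hs
    have h3 : (qPlus 1 F).Equivalent (q2 F) :=
      ((qPlus_succ 0).trans (prod_triv _ _)).trans (hyp_equiv_sq h2 hi.symm)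
    obtain ⟨e1⟩ := nonempty_O h3
    obtain ⟨e2⟩ := Cfsg.Agent.S0305.result (F := F) rfl
    rw [← coe_qPlus] at e2
    have e3 : O (q2 F) ≃* DihedralGroup (Fintype.card F - 1) :=
      (e1.symm.trans (H17.OrthTrans.equiv (qPlus 1 F)).symm).trans e2
    refine ⟨Fintype.card F - 1, by omega, ⟨e3⟩, ?_⟩
    rw [hcard _ (by omega) ⟨e3⟩, ValQ.val_sq hq1, ValQ.val_add_one h]
  · have hs : ¬ IsSquare (-1 : F) := fun h' => by
      have := FiniteField.isSquare_neg_one_iff.1 h'; omega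
    have hani : H7.AnisoPlane.Aniso (0 : F) 1 := by
      intro x y hxy
      have h5 : x ^ 2 + y ^ 2 = 0 := by linear_combination hxy
      by_cases hy : y = 0
      · subst hy
        refine ⟨?_, rfl⟩
        rw [zero_pow (by norm_num), add_zero] at h5
        exact pow_eq_zero_iff (by norm_num) |>.1 h5
      · exfalso
        apply hs
        refine ⟨x / y, ?_⟩
        field_simp
        linear_combination -h5
    obtain ⟨e1⟩ := H7.AnisoPlane.nonempty_equiv hani
    have h3 : (qMinus 0 F 0 1).Equivalent (q2 F) := (qMinus_equiv 0 0 1).trans (plus_zero _)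
    obtain ⟨e2⟩ := nonempty_O h3
    have e3 : O (q2 F) ≃* DihedralGroup (Fintype.card F + 1) := e2.symm.trans e1
    refine ⟨Fintype.card F + 1, by omega, ⟨e3⟩, ?_⟩
    rw [hcard _ (by omega) ⟨e3⟩, ValQ.val_sq hq1, ValQ.val_sub_one h, add_comm]

/-- Sylow 2-subgroups of `Ω(Q)` -/
theorem final (hF : Odd (Fintype.card F)) (h2 : (2 : F) ≠ 0) {ι : Type} [Fintype ι] [DecidableEq ι]
    (Q₀ : QuadraticForm F (ι → F)) {W : Type*} [AddCommGroup W] [Module F W] [Finite W]
    (QW : QuadraticForm F W) (c k : ℕ) (hk : 2 ≤ k) (hW : Good QW c)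
    (h : Q₀.Equivalent (QQ (q2 F) QW k))
    (hcard : padicValNat 2 (Nat.card (O Q₀)) =
      k * padicValNat 2 (Fintype.card F ^ 2 - 1) + padicValNat 2 k.factorial + c)
    (P : Sylow 2 (Cfsg.Omega F ⇑Q₀)) :
    ∀ x : (P : Subgroup (Cfsg.Omega F ⇑Q₀)), x ^ 2 ∈ commutator (P : Subgroup (Cfsg.Omega F ⇑Q₀)) := by
  haveI : Fact (Nat.Prime 2) := ⟨Nat.prime_two⟩
  haveI := finite_O (QQ (q2 F) QW k)
  obtain ⟨N, hN, ⟨e₂⟩, hs⟩ := exists_dih hF h2
  obtain ⟨hND, C, Y, hY, hgenY, hYr, hC⟩ := hW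
  obtain ⟨e₀⟩ := nonempty_O h
  have e : O (QQ (q2 F) QW k) ≃* Cfsg.isometryGroup F ⇑Q₀ := e₀.symm.trans (H17.OrthTrans.equiv Q₀).symm
  have hcard' : padicValNat 2 (Nat.card (O (QQ (q2 F) QW k))) =
      k * padicValNat 2 (Fintype.card F ^ 2 - 1) + padicValNat 2 k.factorial + c := by
    rw [← hcard, Nat.card_congr e₀.toEquiv]
  obtain ⟨P₁⟩ : Nonempty (Sylow 2 (commutator (O (QQ (q2 F) QW k)))) := inferInstance
  have h1 := main QW h2 hk hN e₂ hs hND C Y hY hgenY hYr c hC hcard' P₁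
  have e' : commutator (O (QQ (q2 F) QW k)) ≃* Cfsg.Omega F ⇑Q₀ :=
    ((commutator (O (QQ (q2 F) QW k))).equivMapOfInjective e.toMonoidHom e.injective).trans
      (MulEquiv.subgroupCongr (H17.OrthTrans2.commutator_map e))
  haveI : Finite (Cfsg.Omega F ⇑Q₀) := Finite.of_equiv _ e'.toEquiv
  exact gd_iff.1 (gd_sylow_of_equiv e' P₁ (gd_iff.2 h1) P)

theorem card_O_eq (Q : QuadraticForm F V) : Nat.card (O Q) = Nat.card (H7.Hyp.O ⇑Q) := rfl

end finite

end H79.OrFin
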