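import Mathlib
import Cfsg.Agent.Lib.H83.BdC4

/-!
# Simple groups with a strongly embedded subgroup: the Sylow 2-subgroups are trivial intersection sets
-/

set_option autoImplicit false
set_option linter.unusedVariables false

namespace H79.TiSE

open H57.Bd H16.BD H83.BdC

universe u

variable {G : Type u} [Group G] [Finite G] [IsSimpleGroup G]

/-- the strongly embedded subgroup is the normaliser of a Sylow 2-subgroup which is a TI-subgroup -/
theorem exists_sylow (main : BenderThm.{u, u}) {M : Subgroup G} (hM : Cfsg.IsStronglyEmbedded M) :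
    ∃ S : Sylow 2 G, M = Subgroup.normalizer ((S : Subgroup G) : Set G) ∧
      ∀ g : G, g ∉ M → ∀ x ∈ (S : Subgroup G), g⁻¹ * x * g ∈ M → x = 1 := by
  have hF : Four G := four_of_se hM
  have hcore := core_eq_bot hM.1
  have B := beta_of_se main hM hF
  obtain ⟨Q, h1, h2, h3, h4, h5, h6, h7⟩ := exists_Q B
  obtain ⟨S, hS⟩ := exists_sylow_le hM h2 h3 h4
  have hSQ : Q = (S : Subgroup G) := S.3 (isPGroup_of_core hcore h7) hS
  have hti : ∀ g : G, g ∉ M → ∀ x ∈ (S : Subgroup G), g⁻¹ * x * g ∈ M → x = 1 := by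
    intro g hg x hx h
    rw [← hSQ] at hx
    have h8 : g⁻¹ * (x * g) ∈ M := by rw [← mul_assoc]; exact h
    have := h5 g hg x hx h8
    rw [hcore] at this
    exact Subgroup.mem_bot.1 this
  refine ⟨S, ?_, hti⟩
  apply le_antisymm
  · intro g hg
    rw [Subgroup.mem_normalizer_iff]
    intro x
    rw [← hSQ]
    constructor
    · exact h3 g hg x
    · intro hx
      have := h3 g⁻¹ (M.inv_mem hg) _ hx
      have e : g⁻¹ * (g * x * g⁻¹) * g⁻¹⁻¹ = x := by group
      rwa [e] at this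
  · intro g hg
    by_contra hgM
    obtain ⟨t, ht, ht2⟩ := exists_inv_of_se hM
    have htQ := h6 t ht ht2
    rw [hSQ] at htQ
    have h9 : g⁻¹ * t * g ∈ (S : Subgroup G) := by
      have := (Subgroup.mem_normalizer_iff.1 (Subgroup.inv_mem _ hg) t).1 htQ
      simpa using this
    have h10 := hti g hgM t htQ (h2 (hSQ ▸ h9))
    rw [h10, orderOf_one] at ht2
    exact absurd ht2 (by decide)

/-- **Sylow 2-subgroups are TI** -/
theorem ti_of_se (main : BenderThm.{u, u}) (S : Sylow 2 G) (M : Subgroup G) (hM : Cfsg.IsStronglyEmbedded M) :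
    ∀ g : G, g ∉ Subgroup.normalizer ((S : Subgroup G) : Set G) →
      (S : Subgroup G) ⊓ (S : Subgroup G).map (MulAut.conj g).toMonoidHom = ⊥ := by
  haveI : Fact (Nat.Prime 2) := ⟨Nat.prime_two⟩
  obtain ⟨S₀, hMS, hti⟩ := exists_sylow main hM
  obtain ⟨c, hc⟩ := MulAction.exists_smul_eq G S₀ S
  have hc' : ∀ x, x ∈ (S : Subgroup G) ↔ c⁻¹ * x * c ∈ (S₀ : Subgroup G) := by
    intro x
    rw [← hc]
    change x ∈ ((S₀ : Subgroup G).map (MulAut.conj c).toMonoidHom) ↔ _
    exact mem_cj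
  intro g hg
  rw [Subgroup.eq_bot_iff_forall]
  rintro x ⟨hx, hxg⟩
  replace hxg : g⁻¹ * x * g ∈ (S : Subgroup G) := mem_cj.1 hxg
  set h : G := c⁻¹ * g * c with hh
  have hhM : h ∉ M := by
    intro hcon
    apply hg
    rw [hMS, Subgroup.mem_normalizer_iff] at hcon
    rw [Subgroup.mem_normalizer_iff]
    intro y
    rw [hc', hc']
    have := hcon (c⁻¹ * y * c)
    rw [this]
    have e : h * (c⁻¹ * y * c) * h⁻¹ = c⁻¹ * (g * y * g⁻¹) * c := by rw [hh]; group
    rw [e]
  have h1 : h⁻¹ * (c⁻¹ * x * c) * h ∈ M := by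
    have h2 := (hc' _).1 hxg
    have e : h⁻¹ * (c⁻¹ * x * c) * h = c⁻¹ * (g⁻¹ * x * g) * c := by rw [hh]; group
    rw [e, hMS]
    exact Subgroup.le_normalizer h2
  have h2 := hti h hhM (c⁻¹ * x * c) ((hc' x).1 hx) h1
  have : x = c * (c⁻¹ * x * c) * c⁻¹ := by group
  rw [this, h2]; group

/-- normaliser form: every element of `M`'s conjugates -/
theorem normalizer_of_inter (main : BenderThm.{u, u}) (S : Sylow 2 G) (M : Subgroup G) (hM : Cfsg.IsStronglyEmbedded M)
    {g x : G} (hx : x ∈ (S : Subgroup G)) (hx1 : x ≠ 1) (hgx : g * x * g⁻¹ ∈ (S : Subgroup G)) :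
    g ∈ Subgroup.normalizer ((S : Subgroup G) : Set G) := by
  by_contra hg
  have hg' : g⁻¹ ∉ Subgroup.normalizer ((S : Subgroup G) : Set G) := fun h => hg (by
    have := Subgroup.inv_mem _ h
    rwa [inv_inv] at this)
  have h := ti_of_se main S M hM g⁻¹ hg'
  have : x ∈ (S : Subgroup G) ⊓ (S : Subgroup G).map (MulAut.conj g⁻¹).toMonoidHom :=
    ⟨hx, mem_cj.2 (by rw [inv_inv]; exact hgx)⟩
  rw [h] at this
  exact hx1 (Subgroup.mem_bot.1 this)

/-- conjugate form: `M` is the normaliser of a Sylow 2-subgroup contained in it -/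
theorem eq_normalizer_of_le (main : BenderThm.{u, u}) (S : Sylow 2 G) (M : Subgroup G)
    (hM : Cfsg.IsStronglyEmbedded M) (hS : (S : Subgroup G) ≤ M) :
    M = Subgroup.normalizer ((S : Subgroup G) : Set G) := by
  haveI : Fact (Nat.Prime 2) := ⟨Nat.prime_two⟩
  obtain ⟨S₀, hMS, hti⟩ := exists_sylow main hM
  have h1 : (S : Subgroup G) ≤ S₀ := by
    have hsup : IsPGroup 2 ((S₀ : Subgroup G) ⊔ (S : Subgroup G) : Subgroup G) :=
      IsPGroup.to_sup_of_normal_left' S₀.2 S.2 (by rw [← hMS]; exact hS)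
    have := S₀.3 hsup le_sup_left
    rw [← this]
    exact le_sup_right
  have h2 : (S : Subgroup G) = S₀ := (S.3 S₀.2 h1).symm
  rw [h2]; exact hMS

end H79.TiSE
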